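/-
Words for the Coxeter-type presentations used for the Schur multiplier of the Fischer group `Fi₂₃`.
Nodes of the diagram `Y₃₄₂`: `a = 0, b = 1, c = 2, d = 3, e = 4, f = 5, g = 6, j = 7, h = 8, i = 9`.
All words are positive words in the letters; every letter will be an involution.
-/
import Mathlib

set_option autoImplicit false

namespace Cfsg.Agent.Lib.Fischer.M23.Mult.Words

/-- Adjacency of the nodes of the diagram. -/
def adj10 (x y : Fin 10) : Bool :=
  ([(0, 1), (1, 2), (2, 3), (3, 4), (4, 5), (5, 6), (6, 7), (3, 8), (8, 9)] : List (ℕ × ℕ)).any fun p =>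
    (p.1 == x.1 && p.2 == y.1) || (p.1 == y.1 && p.2 == x.1)

/-- A positive word as an element of the free group. -/
def wP {n : ℕ} (l : List (Fin n)) : FreeGroup (Fin n) := FreeGroup.mk (l.map fun x => (x, true))

/-- The word `(i j)^m`. -/
def cW {n : ℕ} (m : ℕ) (i j : Fin n) : List (Fin n) := (List.replicate m [i, j]).flatten

/-- The Coxeter words of a set of nodes. -/
def coxW {n : ℕ} (l : Fin n → Fin 10) : List (List (Fin n)) :=
  (List.finRange n).flatMap fun i => (List.finRange n).filterMap fun j =>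
    if i = j then some [i, i] else if i.1 < j.1 then some (cW (if adj10 (l i) (l j) then 3 else 2) i j) else none

/-- The word saying that `w` commutes with `x`. -/
def comW {n : ℕ} (w : List (Fin n)) (x : Fin n) : List (Fin n) := w ++ [x] ++ w.reverse ++ [x]

/-- The relators with a set of central words. -/
def relsOf {n : ℕ} (l : Fin n → Fin 10) (w : List (Fin n)) : List (FreeGroup (Fin n)) :=
  (coxW l ++ (List.finRange n).map (comW w)).map wP

/-- The Coxeter relators. -/
def relsCox {n : ℕ} (l : Fin n → Fin 10) : List (FreeGroup (Fin n)) := (coxW l).map wP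

/-- `A₄` on `d e f h`. -/
def lA4 : Fin 4 → Fin 10 := ![3, 4, 5, 8]
/-- `D₅` on `c d e f h`. -/
def lD5 : Fin 5 → Fin 10 := ![2, 3, 4, 5, 8]
/-- `E₆` on `b c d e f h`. -/
def lE6 : Fin 6 → Fin 10 := ![1, 2, 3, 4, 5, 8]
/-- `E₇` on `b c d e f g h`. -/
def lE7 : Fin 7 → Fin 10 := ![1, 2, 3, 4, 5, 6, 8]
/-- `E₈` on `b c d e f g j h`. -/
def lE8 : Fin 8 → Fin 10 := ![1, 2, 3, 4, 5, 6, 7, 8]
/-- `Y₂₂₂` on `b c d e f h i`. -/
def lY6 : Fin 7 → Fin 10 := ![1, 2, 3, 4, 5, 8, 9]
/-- `Y₂₄₂` on `b c d e f g j h i`. -/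
def lY8 : Fin 9 → Fin 10 := ![1, 2, 3, 4, 5, 6, 7, 8, 9]

/-- The tenth power of the spider word `d c b d e f d h i` on the nodes of `Y₂₂₂`. -/
def w10Y6 : List (Fin 7) := (List.replicate 10 ([2, 1, 0, 2, 3, 4, 2, 5, 6] : List (Fin 7))).flatten

/-- The tenth power of the spider word on the nodes of `Y₂₄₂`. -/
def w10Y8 : List (Fin 9) := (List.replicate 10 ([2, 1, 0, 2, 3, 4, 2, 7, 8] : List (Fin 9))).flatten

/-- The translation `(b c d h e f d e c d h i)^4` on the nodes of `Y₂₂₂`. -/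
def u4Y6 : List (Fin 7) := (List.replicate 4 ([0, 1, 2, 5, 3, 4, 2, 3, 1, 2, 5, 6] : List (Fin 7))).flatten

/-- The translation `(b c d h e f d e c d h i)^4` on the nodes of `Y₂₄₂`. -/
def u4Y8 : List (Fin 9) := (List.replicate 4 ([0, 1, 2, 7, 3, 4, 2, 3, 1, 2, 7, 8] : List (Fin 9))).flatten

/-- The relators of the coset enumeration on `Y₂₂₂`. -/
def rsY6 : List (FreeGroup (Fin 7)) := relsOf lY6 u4Y6
/-- The relators of the coset enumeration on `Y₂₄₂`. -/
def rsY8 : List (FreeGroup (Fin 9)) := relsOf lY8 u4Y8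

end Cfsg.Agent.Lib.Fischer.M23.Mult.Words
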