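/-
Lifting the involutions of a Coxeter-type diagram to a central extension.

Let `σ : Γ → G` be onto with central kernel and `g : Fin 10 → G` elements of `G` satisfying the Coxeter relations
of the diagram `Y₃₄₂`. If the odd word `(a b c d e f h)^9` is trivial in `G`, then the elements `g x` have lifts
`hat x` satisfying the braid relations on the edges, commuting off the edges, with a common central square `θ`.
-/
import Cfsg.Agent.Lib.Fischer.M23.Mult.Words

set_option autoImplicit false

namespace Cfsg.Agent.Lib.Fischer.M23.Mult.Lift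

open Words

universe u v

variable {Γ : Type u} {G : Type v} [Group Γ] [Group G]

/-- The Coxeter relations of the diagram. -/
structure NodesG (g : Fin 10 → G) : Prop where
  sq : ∀ x, g x * g x = 1
  br : ∀ x y, adj10 x y = true → g x * g y * g x = g y * g x * g y
  cm : ∀ x y, x ≠ y → adj10 x y = false → g x * g y = g y * g x

section Cv

/-- The commutator of `u` with `y`. -/
def cv (y u : Γ) : Γ := u * y * u⁻¹ * y⁻¹

theorem cv_mul {y u v : Γ} (hu : cv y u ∈ Subgroup.center Γ) (hv : cv y v ∈ Subgroup.center Γ) :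
    cv y (u * v) = cv y u * cv y v := by
  have hv' : v * y * v⁻¹ = cv y v * y := by simp [cv]
  have hc := Subgroup.mem_center_iff.1 hv
  calc cv y (u * v) = u * (v * y * v⁻¹) * u⁻¹ * y⁻¹ := by simp [cv, mul_assoc]
    _ = u * (cv y v * y) * u⁻¹ * y⁻¹ := by rw [hv']
    _ = cv y v * (u * y * u⁻¹ * y⁻¹) := by
        rw [← mul_assoc u, hc u]; simp [mul_assoc]
    _ = cv y u * cv y v := (hc _).symm

theorem cv_one (y : Γ) : cv y (1 : Γ) = 1 := by simp [cv]

theorem cv_inv {y u : Γ} (hu : cv y u ∈ Subgroup.center Γ) : cv y u⁻¹ = (cv y u)⁻¹ := by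
  have hc := Subgroup.mem_center_iff.1 hu
  -- `u y u⁻¹ = c y`, so `y = u⁻¹ c y u = c u⁻¹ y u`
  have h1 : u * y * u⁻¹ = cv y u * y := by simp [cv]
  have h2 : u⁻¹ * y * u = (cv y u)⁻¹ * y := by
    have h3 : y = u⁻¹ * (cv y u * y) * u := by rw [← h1]; group
    have h4 : u⁻¹ * (cv y u * y) * u = cv y u * (u⁻¹ * y * u) := by
      rw [← mul_assoc u⁻¹, hc u⁻¹]; simp [mul_assoc]
    rw [h4] at h3
    rw [eq_inv_mul_iff_mul_eq]
    exact h3.symm
  simp only [cv, inv_inv]
  rw [h2]
  simp [cv]

theorem cv_inv_mem {y u : Γ} (hu : cv y u ∈ Subgroup.center Γ) : cv y u⁻¹ ∈ Subgroup.center Γ := by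
  rw [cv_inv hu]; exact inv_mem hu

theorem cv_conj {y u v : Γ} (hu : cv y u ∈ Subgroup.center Γ) (hv : cv y v ∈ Subgroup.center Γ) :
    cv y (u * v * u⁻¹) = cv y v := by
  have h1 : cv y (u * v) = cv y u * cv y v := cv_mul hu hv
  have h2 : cv y (u * v) ∈ Subgroup.center Γ := by rw [h1]; exact mul_mem hu hv
  rw [cv_mul h2 (cv_inv_mem hu), h1, cv_inv hu]
  have hc := Subgroup.mem_center_iff.1 hv
  rw [hc (cv y u)]
  simp

theorem cv_symm (x y : Γ) : cv y x = (cv x y)⁻¹ := by
  simp [cv, mul_assoc]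

theorem cv_prod {α : Type*} {y a : Γ} (ha : a ∈ Subgroup.center Γ) (f : α → Γ) (l : List α)
    (h : ∀ x ∈ l, cv y (f x) = a) : cv y (l.map f).prod = a ^ l.length := by
  induction l with
  | nil => simp [cv_one]
  | cons x l ih =>
    have h1 := ih (fun z hz => h z (List.mem_cons_of_mem _ hz))
    have h2 : cv y (f x) = a := h x (by simp)
    simp only [List.map_cons, List.prod_cons, List.length_cons]
    rw [cv_mul (by rw [h2]; exact ha) (by rw [h1]; exact pow_mem ha _), h1, h2, pow_succ']

end Cv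

variable (σ : Γ →* G)

/-- One lifting step along an edge of the tree. -/
theorem step (hK : σ.ker ≤ Subgroup.center Γ) {P t : Γ} {x y : G} (hP : σ P = x) (ht : σ t = y)
    (hx : x * x = 1) (hy : y * y = 1) (hxy : x * y * x = y * x * y) :
    ∃ Y, σ Y = y ∧ Y * P * Y = P * Y * P ∧ Y * Y = P * P := by
  have hxi : x⁻¹ = x := inv_eq_of_mul_eq_one_left hx
  have hyi : y⁻¹ = y := inv_eq_of_mul_eq_one_left hy
  have hσY : σ ((P * t) * P * (P * t)⁻¹) = y := by
    simp only [map_mul, map_inv, hP, ht, mul_inv_rev, hxi, hyi]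
    -- x y x y x = y
    calc x * y * x * (y * x) = (x * y * x) * y * x := by group
      _ = (y * x * y) * y * x := by rw [hxy]
      _ = y * x * (y * y) * x := by group
      _ = y := by rw [hy, mul_one, mul_assoc, hx, mul_one]
  refine ⟨(P * t) * P * (P * t)⁻¹, hσY, ?_, ?_⟩
  · set Y := (P * t) * P * (P * t)⁻¹ with hY
    -- `P * Y` and `P * t` have the same image
    have hk : (P * t)⁻¹ * (P * Y) ∈ σ.ker := by
      rw [MonoidHom.mem_ker]
      simp only [map_mul, map_inv, hP, ht, hσY]
      simp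
    have hc := Subgroup.mem_center_iff.1 (hK hk)
    set k := (P * t)⁻¹ * (P * Y) with hkdef
    have h1 : P * Y = (P * t) * k := by rw [hkdef]; group
    have h2 : Y = (P * Y) * P * (P * Y)⁻¹ := by
      rw [h1, mul_inv_rev]
      have hc1 := hc P
      calc Y = (P * t) * P * (P * t)⁻¹ := hY
        _ = (P * t) * (k * P * k⁻¹) * (P * t)⁻¹ := by
            rw [show k * P = P * k from (hc P).symm]; group
        _ = P * t * k * P * (k⁻¹ * (P * t)⁻¹) := by group
    -- `Y = P Y P Y⁻¹ P⁻¹`
    have h3 : Y * (P * Y) = (P * Y) * P := by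
      have h4 : (P * Y) * P * (P * Y)⁻¹ * (P * Y) = (P * Y) * P := by group
      rw [← h2] at h4
      exact h4
    calc Y * P * Y = Y * (P * Y) := by group
      _ = (P * Y) * P := h3
  · have hq : P * P ∈ σ.ker := by
      rw [MonoidHom.mem_ker, map_mul, hP, hx]
    have hc := Subgroup.mem_center_iff.1 (hK hq)
    set r := P * t with hr
    calc r * P * r⁻¹ * (r * P * r⁻¹) = r * (P * P) * r⁻¹ := by group
      _ = (P * P) * r * r⁻¹ := by rw [(hc r).symm]
      _ = P * P := by group

/-- The lifts. -/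
structure Hats (g : Fin 10 → G) (hat : Fin 10 → Γ) (θ : Γ) : Prop where
  lift : ∀ x, σ (hat x) = g x
  br : ∀ x y, adj10 x y = true → hat x * hat y * hat x = hat y * hat x * hat y
  cm : ∀ x y, x ≠ y → adj10 x y = false → hat x * hat y = hat y * hat x
  sq : ∀ x, hat x * hat x = θ
  ker : σ θ = 1

/-- The odd word `(a b c d e f h)^9`. -/
def z1W : List (Fin 10) := (List.replicate 9 ([0, 1, 2, 3, 4, 5, 8] : List (Fin 10))).flatten

variable {σ}

/-- The pairs of commuting nodes, in an order in which each follows from earlier ones. -/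
theorem all_commute {val : Fin 10 → Fin 10 → Prop} (h0 : val 0 7)
    (hsw : ∀ x y, val x y → val y x)
    (hmv : ∀ x z y, adj10 x z = true → x ≠ y → z ≠ y → adj10 x y = false → adj10 z y = false → val x y → val z y) :
    ∀ x y, x ≠ y → adj10 x y = false → val x y := by
  have h7_0 := hsw _ _ h0
  have h1_7 := hmv 0 1 7 (by decide) (by decide) (by decide) (by decide) (by decide) h0
  have h6_0 := hmv 7 6 0 (by decide) (by decide) (by decide) (by decide) (by decide) h7_0
  have h7_1 := hsw _ _ h1_7
  have h2_7 := hmv 1 2 7 (by decide) (by decide) (by decide) (by decide) (by decide) h1_7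
  have h0_6 := hsw _ _ h6_0
  have h5_0 := hmv 6 5 0 (by decide) (by decide) (by decide) (by decide) (by decide) h6_0
  have h6_1 := hmv 7 6 1 (by decide) (by decide) (by decide) (by decide) (by decide) h7_1
  have h7_2 := hsw _ _ h2_7
  have h3_7 := hmv 2 3 7 (by decide) (by decide) (by decide) (by decide) (by decide) h2_7
  have h1_6 := hmv 0 1 6 (by decide) (by decide) (by decide) (by decide) (by decide) h0_6
  have h0_5 := hsw _ _ h5_0
  have h4_0 := hmv 5 4 0 (by decide) (by decide) (by decide) (by decide) (by decide) h5_0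
  have h5_1 := hmv 6 5 1 (by decide) (by decide) (by decide) (by decide) (by decide) h6_1
  have h6_2 := hmv 7 6 2 (by decide) (by decide) (by decide) (by decide) (by decide) h7_2
  have h7_3 := hsw _ _ h3_7
  have h4_7 := hmv 3 4 7 (by decide) (by decide) (by decide) (by decide) (by decide) h3_7
  have h8_7 := hmv 3 8 7 (by decide) (by decide) (by decide) (by decide) (by decide) h3_7
  have h2_6 := hmv 1 2 6 (by decide) (by decide) (by decide) (by decide) (by decide) h1_6
  have h1_5 := hmv 0 1 5 (by decide) (by decide) (by decide) (by decide) (by decide) h0_5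
  have h0_4 := hsw _ _ h4_0
  have h3_0 := hmv 4 3 0 (by decide) (by decide) (by decide) (by decide) (by decide) h4_0
  have h4_1 := hmv 5 4 1 (by decide) (by decide) (by decide) (by decide) (by decide) h5_1
  have h5_2 := hmv 6 5 2 (by decide) (by decide) (by decide) (by decide) (by decide) h6_2
  have h6_3 := hmv 7 6 3 (by decide) (by decide) (by decide) (by decide) (by decide) h7_3
  have h7_4 := hsw _ _ h4_7
  have h5_7 := hmv 4 5 7 (by decide) (by decide) (by decide) (by decide) (by decide) h4_7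
  have h7_8 := hsw _ _ h8_7
  have h9_7 := hmv 8 9 7 (by decide) (by decide) (by decide) (by decide) (by decide) h8_7
  have h3_6 := hmv 2 3 6 (by decide) (by decide) (by decide) (by decide) (by decide) h2_6
  have h2_5 := hmv 1 2 5 (by decide) (by decide) (by decide) (by decide) (by decide) h1_5
  have h1_4 := hmv 0 1 4 (by decide) (by decide) (by decide) (by decide) (by decide) h0_4
  have h0_3 := hsw _ _ h3_0
  have h2_0 := hmv 3 2 0 (by decide) (by decide) (by decide) (by decide) (by decide) h3_0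
  have h8_0 := hmv 3 8 0 (by decide) (by decide) (by decide) (by decide) (by decide) h3_0
  have h3_1 := hmv 4 3 1 (by decide) (by decide) (by decide) (by decide) (by decide) h4_1
  have h4_2 := hmv 5 4 2 (by decide) (by decide) (by decide) (by decide) (by decide) h5_2
  have h5_3 := hmv 6 5 3 (by decide) (by decide) (by decide) (by decide) (by decide) h6_3
  have h6_4 := hmv 7 6 4 (by decide) (by decide) (by decide) (by decide) (by decide) h7_4
  have h7_5 := hsw _ _ h5_7
  have h6_8 := hmv 7 6 8 (by decide) (by decide) (by decide) (by decide) (by decide) h7_8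
  have h7_9 := hsw _ _ h9_7
  have h4_6 := hmv 3 4 6 (by decide) (by decide) (by decide) (by decide) (by decide) h3_6
  have h8_6 := hmv 3 8 6 (by decide) (by decide) (by decide) (by decide) (by decide) h3_6
  have h3_5 := hmv 2 3 5 (by decide) (by decide) (by decide) (by decide) (by decide) h2_5
  have h2_4 := hmv 1 2 4 (by decide) (by decide) (by decide) (by decide) (by decide) h1_4
  have h1_3 := hmv 0 1 3 (by decide) (by decide) (by decide) (by decide) (by decide) h0_3
  have h0_2 := hsw _ _ h2_0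
  have h0_8 := hsw _ _ h8_0
  have h9_0 := hmv 8 9 0 (by decide) (by decide) (by decide) (by decide) (by decide) h8_0
  have h8_1 := hmv 3 8 1 (by decide) (by decide) (by decide) (by decide) (by decide) h3_1
  have h5_8 := hmv 6 5 8 (by decide) (by decide) (by decide) (by decide) (by decide) h6_8
  have h6_9 := hmv 7 6 9 (by decide) (by decide) (by decide) (by decide) (by decide) h7_9
  have h9_6 := hmv 8 9 6 (by decide) (by decide) (by decide) (by decide) (by decide) h8_6
  have h8_5 := hmv 3 8 5 (by decide) (by decide) (by decide) (by decide) (by decide) h3_5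
  have h1_8 := hmv 0 1 8 (by decide) (by decide) (by decide) (by decide) (by decide) h0_8
  have h0_9 := hsw _ _ h9_0
  have h9_1 := hmv 8 9 1 (by decide) (by decide) (by decide) (by decide) (by decide) h8_1
  have h4_8 := hmv 5 4 8 (by decide) (by decide) (by decide) (by decide) (by decide) h5_8
  have h5_9 := hmv 6 5 9 (by decide) (by decide) (by decide) (by decide) (by decide) h6_9
  have h9_5 := hmv 8 9 5 (by decide) (by decide) (by decide) (by decide) (by decide) h8_5
  have h2_8 := hmv 1 2 8 (by decide) (by decide) (by decide) (by decide) (by decide) h1_8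
  have h1_9 := hmv 0 1 9 (by decide) (by decide) (by decide) (by decide) (by decide) h0_9
  have h8_4 := hsw _ _ h4_8
  have h4_9 := hmv 5 4 9 (by decide) (by decide) (by decide) (by decide) (by decide) h5_9
  have h8_2 := hsw _ _ h2_8
  have h2_9 := hmv 1 2 9 (by decide) (by decide) (by decide) (by decide) (by decide) h1_9
  have h9_4 := hmv 8 9 4 (by decide) (by decide) (by decide) (by decide) (by decide) h8_4
  have h3_9 := hmv 4 3 9 (by decide) (by decide) (by decide) (by decide) (by decide) h4_9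
  have h9_2 := hmv 8 9 2 (by decide) (by decide) (by decide) (by decide) (by decide) h8_2
  have h9_3 := hsw _ _ h3_9
  have hL : ∀ p ∈ ([(0,2), (0,3), (0,4), (0,5), (0,6), (0,7), (0,8), (0,9), (1,3), (1,4), (1,5), (1,6), (1,7), (1,8), (1,9), (2,0), (2,4), (2,5), (2,6), (2,7), (2,8), (2,9), (3,0), (3,1), (3,5), (3,6), (3,7), (3,9), (4,0), (4,1), (4,2), (4,6), (4,7), (4,8), (4,9), (5,0), (5,1), (5,2), (5,3), (5,7), (5,8), (5,9), (6,0), (6,1), (6,2), (6,3), (6,4), (6,8), (6,9), (7,0), (7,1), (7,2), (7,3), (7,4), (7,5), (7,8), (7,9), (8,0), (8,1), (8,2), (8,4), (8,5), (8,6), (8,7), (9,0), (9,1), (9,2), (9,3), (9,4), (9,5), (9,6), (9,7)] : List (Fin 10 × Fin 10)), val p.1 p.2 := by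
    simp only [List.forall_mem_cons]
    exact ⟨h0_2 , h0_3 , h0_4 , h0_5 , h0_6 , h0 , h0_8 , h0_9 , h1_3 , h1_4 , h1_5 , h1_6 , h1_7 , h1_8 , h1_9 , h2_0 , h2_4 , h2_5 , h2_6 , h2_7 , h2_8 , h2_9 , h3_0 , h3_1 , h3_5 , h3_6 , h3_7 , h3_9 , h4_0 , h4_1 , h4_2 , h4_6 , h4_7 , h4_8 , h4_9 , h5_0 , h5_1 , h5_2 , h5_3 , h5_7 , h5_8 , h5_9 , h6_0 , h6_1 , h6_2 , h6_3 , h6_4 , h6_8 , h6_9 , h7_0 , h7_1 , h7_2 , h7_3 , h7_4 , h7_5 , h7_8 , h7_9 , h8_0 , h8_1 , h8_2 , h8_4 , h8_5 , h8_6 , h8_7 , h9_0 , h9_1 , h9_2 , h9_3 , h9_4 , h9_5 , h9_6 , h9_7, fun _ h => by simp at h⟩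
  have hmem : ∀ x y : Fin 10, x ≠ y → adj10 x y = false → (x, y) ∈ ([(0,2), (0,3), (0,4), (0,5), (0,6), (0,7), (0,8), (0,9), (1,3), (1,4), (1,5), (1,6), (1,7), (1,8), (1,9), (2,0), (2,4), (2,5), (2,6), (2,7), (2,8), (2,9), (3,0), (3,1), (3,5), (3,6), (3,7), (3,9), (4,0), (4,1), (4,2), (4,6), (4,7), (4,8), (4,9), (5,0), (5,1), (5,2), (5,3), (5,7), (5,8), (5,9), (6,0), (6,1), (6,2), (6,3), (6,4), (6,8), (6,9), (7,0), (7,1), (7,2), (7,3), (7,4), (7,5), (7,8), (7,9), (8,0), (8,1), (8,2), (8,4), (8,5), (8,6), (8,7), (9,0), (9,1), (9,2), (9,3), (9,4), (9,5), (9,6), (9,7)] : List (Fin 10 × Fin 10)) := by decide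
  intro x y hne hadj
  exact hL (x, y) (hmem x y hne hadj)

/-- The elements `hat x` commute, from the oddness of `(a b c d e f h)^9`. -/
theorem hats_of_tree {hat : Fin 10 → Γ} {θ : Γ} {g : Fin 10 → G} (hK : σ.ker ≤ Subgroup.center Γ) (hg : NodesG g)
    (hlift : ∀ x, σ (hat x) = g x)
    (hbr : ∀ x y, adj10 x y = true → hat x * hat y * hat x = hat y * hat x * hat y)
    (hsq : ∀ x, hat x * hat x = θ) (hz : (z1W.map g).prod = 1) :
    ∀ x y, x ≠ y → adj10 x y = false → hat x * hat y = hat y * hat x := by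
  have hcv : ∀ x y, x ≠ y → adj10 x y = false → cv (hat y) (hat x) ∈ Subgroup.center Γ := by
    intro x y hne hadj
    apply hK
    rw [MonoidHom.mem_ker]
    simp only [cv, map_mul, map_inv, hlift]
    rw [hg.cm x y hne hadj]
    group
  have hθ : θ ∈ Subgroup.center Γ := by
    apply hK
    rw [MonoidHom.mem_ker, ← hsq 0, map_mul, hlift, hg.sq]
  -- the moves
  have hmove : ∀ x z y, adj10 x z = true → x ≠ y → z ≠ y → adj10 x y = false → adj10 z y = false →
      cv (hat y) (hat z) = cv (hat y) (hat x) := by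
    intro x z y hxz hxy hzy h1 h2
    have hconj : hat z = (hat x * hat z) * hat x * (hat x * hat z)⁻¹ := by
      have hb := hbr x z hxz
      calc hat z = (hat z * hat x * hat z) * (hat z)⁻¹ * (hat x)⁻¹ := by group
        _ = (hat x * hat z * hat x) * (hat z)⁻¹ * (hat x)⁻¹ := by rw [hb]
        _ = (hat x * hat z) * hat x * (hat x * hat z)⁻¹ := by group
    have hu : cv (hat y) (hat x * hat z) ∈ Subgroup.center Γ := by
      rw [cv_mul (hcv x y hxy h1) (hcv z y hzy h2)]
      exact mul_mem (hcv x y hxy h1) (hcv z y hzy h2)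
    conv_lhs => rw [hconj]
    exact cv_conj hu (hcv x y hxy h1)
  -- the value of the pair `(a, j)`
  have h07 : cv (hat 7) (hat 0) = 1 := by
    set δ := cv (hat 7) (hat 0) with hδ
    have hδc : δ ∈ Subgroup.center Γ := hcv 0 7 (by decide) (by decide)
    have h1 : cv (hat 7) (hat 1) = δ := hmove 0 1 7 (by decide) (by decide) (by decide) (by decide) (by decide)
    have h2 : cv (hat 7) (hat 2) = δ := by
      rw [hmove 1 2 7 (by decide) (by decide) (by decide) (by decide) (by decide), h1]
    have h3 : cv (hat 7) (hat 3) = δ := by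
      rw [hmove 2 3 7 (by decide) (by decide) (by decide) (by decide) (by decide), h2]
    have h4 : cv (hat 7) (hat 4) = δ := by
      rw [hmove 3 4 7 (by decide) (by decide) (by decide) (by decide) (by decide), h3]
    have h5 : cv (hat 7) (hat 5) = δ := by
      rw [hmove 4 5 7 (by decide) (by decide) (by decide) (by decide) (by decide), h4]
    have h8 : cv (hat 7) (hat 8) = δ := by
      rw [hmove 3 8 7 (by decide) (by decide) (by decide) (by decide) (by decide), h3]
    have hw : ∀ x ∈ z1W, cv (hat 7) (hat x) = δ := by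
      have hsub : ∀ x ∈ z1W, x ∈ ([0, 1, 2, 3, 4, 5, 8] : List (Fin 10)) := by decide
      intro x hx
      have := hsub x hx
      simp only [List.mem_cons, List.not_mem_nil, or_false] at this
      rcases this with rfl | rfl | rfl | rfl | rfl | rfl | rfl
      · rfl
      · exact h1
      · exact h2
      · exact h3
      · exact h4
      · exact h5
      · exact h8
    have hp := cv_prod hδc hat z1W hw
    have hlen : z1W.length = 63 := by decide
    rw [hlen] at hp
    -- the word lies in the kernel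
    have hzk : (z1W.map hat).prod ∈ Subgroup.center Γ := by
      apply hK
      rw [MonoidHom.mem_ker, map_list_prod, List.map_map]
      have : (⇑σ ∘ hat) = g := by
        funext x
        exact hlift x
      rw [this, hz]
    have hc1 : cv (hat 7) (z1W.map hat).prod = 1 := by
      have hc := Subgroup.mem_center_iff.1 hzk
      simp only [cv]
      rw [(hc (hat 7)).symm]
      simp
    have hsqδ : δ * δ = 1 := by
      have h9 : cv (hat 7) (hat 0 * hat 0) = δ * δ := cv_mul hδc hδc
      rw [hsq 0] at h9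
      have hc := Subgroup.mem_center_iff.1 hθ
      rw [← h9]
      simp only [cv]
      rw [(hc (hat 7)).symm]
      simp
    have h63 : δ ^ 63 = 1 := by rw [← hp, hc1]
    have h2' : δ ^ 2 = 1 := by rw [pow_two, hsqδ]
    have : δ ^ 63 = δ := by
      have e : (63 : ℕ) = 2 * 31 + 1 := by norm_num
      rw [e, pow_succ, pow_mul, h2', one_pow, one_mul]
    rw [← this, h63]
  have hall := all_commute (val := fun x y => cv (hat y) (hat x) = 1) h07
    (by
      intro x y h
      show cv (hat x) (hat y) = 1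
      rw [cv_symm, h, inv_one])
    (by
      intro x z y hxz hxy hzy h1 h2 h
      show cv (hat y) (hat z) = 1
      rw [hmove x z y hxz hxy hzy h1 h2]
      exact h)
  intro x y hne hadj
  have h := hall x y hne hadj
  simp only [cv] at h
  have h' : hat x * hat y * (hat x)⁻¹ = hat y := by
    rwa [mul_inv_eq_one] at h
  calc hat x * hat y = hat x * hat y * (hat x)⁻¹ * hat x := by group
    _ = hat y * hat x := by rw [h']

/-- The lifts exist. -/
theorem exists_hats {g : Fin 10 → G} (hσ : Function.Surjective σ) (hK : σ.ker ≤ Subgroup.center Γ) (hg : NodesG g)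
    (hz : (z1W.map g).prod = 1) : ∃ hat θ, Hats σ g hat θ := by
  choose s hs using fun x => hσ (g x)
  have st : ∀ {P : Γ} {x y : Fin 10}, σ P = g x → adj10 x y = true →
      ∃ Y, σ Y = g y ∧ Y * P * Y = P * Y * P ∧ Y * Y = P * P := by
    intro P x y hP hxy
    exact step σ hK hP (hs y) (hg.sq x) (hg.sq y) (hg.br x y hxy)
  obtain ⟨h1, l1, b1, q1⟩ := st (P := s 0) (x := 0) (y := 1) (hs 0) (by decide)
  obtain ⟨h2, l2, b2, q2⟩ := st (P := h1) (x := 1) (y := 2) l1 (by decide)
  obtain ⟨h3, l3, b3, q3⟩ := st (P := h2) (x := 2) (y := 3) l2 (by decide)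
  obtain ⟨h4, l4, b4, q4⟩ := st (P := h3) (x := 3) (y := 4) l3 (by decide)
  obtain ⟨h5, l5, b5, q5⟩ := st (P := h4) (x := 4) (y := 5) l4 (by decide)
  obtain ⟨h6, l6, b6, q6⟩ := st (P := h5) (x := 5) (y := 6) l5 (by decide)
  obtain ⟨h7, l7, b7, q7⟩ := st (P := h6) (x := 6) (y := 7) l6 (by decide)
  obtain ⟨h8, l8, b8, q8⟩ := st (P := h3) (x := 3) (y := 8) l3 (by decide)
  obtain ⟨h9, l9, b9, q9⟩ := st (P := h8) (x := 8) (y := 9) l8 (by decide)
  let hat : Fin 10 → Γ := ![s 0, h1, h2, h3, h4, h5, h6, h7, h8, h9]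
  have hlift : ∀ x, σ (hat x) = g x := by
    intro x
    fin_cases x
    · exact hs 0
    · exact l1
    · exact l2
    · exact l3
    · exact l4
    · exact l5
    · exact l6
    · exact l7
    · exact l8
    · exact l9
  have hsq : ∀ x, hat x * hat x = s 0 * s 0 := by
    intro x
    fin_cases x
    · rfl
    · exact q1
    · exact q2.trans q1
    · exact q3.trans (q2.trans q1)
    · exact q4.trans (q3.trans (q2.trans q1))
    · exact q5.trans (q4.trans (q3.trans (q2.trans q1)))
    · exact q6.trans (q5.trans (q4.trans (q3.trans (q2.trans q1))))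
    · exact q7.trans (q6.trans (q5.trans (q4.trans (q3.trans (q2.trans q1)))))
    · exact q8.trans (q3.trans (q2.trans q1))
    · exact q9.trans (q8.trans (q3.trans (q2.trans q1)))
  have hE : ∀ p ∈ ([(0,1),(1,2),(2,3),(3,4),(4,5),(5,6),(6,7),(3,8),(8,9)] : List (Fin 10 × Fin 10)),
      hat p.1 * hat p.2 * hat p.1 = hat p.2 * hat p.1 * hat p.2 := by
    simp only [List.forall_mem_cons]
    exact ⟨b1.symm, b2.symm, b3.symm, b4.symm, b5.symm, b6.symm, b7.symm, b8.symm, b9.symm, fun _ h => by simp at h⟩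
  have hmem : ∀ x y : Fin 10, adj10 x y = true →
      (x, y) ∈ ([(0,1),(1,2),(2,3),(3,4),(4,5),(5,6),(6,7),(3,8),(8,9)] : List (Fin 10 × Fin 10)) ∨
      (y, x) ∈ ([(0,1),(1,2),(2,3),(3,4),(4,5),(5,6),(6,7),(3,8),(8,9)] : List (Fin 10 × Fin 10)) := by decide
  have hbr : ∀ x y, adj10 x y = true → hat x * hat y * hat x = hat y * hat x * hat y := by
    intro x y hxy
    rcases hmem x y hxy with h | h
    · exact hE (x, y) h
    · exact (hE (y, x) h).symm
  refine ⟨hat, s 0 * s 0, hlift, hbr, hats_of_tree hK hg hlift hbr hsq hz, hsq, ?_⟩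
  rw [map_mul, hs, hg.sq]

end Cfsg.Agent.Lib.Fischer.M23.Mult.Lift
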