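/-
The graded group `Γ × ℤ`: the lifted generators have degree one, and the part of the kernel of a stem extension
lying in the commutator subgroup is expressed by the three central elements `θ`, `R₁` and `R₂` of degrees `2`, `63`
and `90`.
-/
import Cfsg.Agent.Lib.Fischer.M23.Mult.Lift

set_option autoImplicit false

namespace Cfsg.Agent.Lib.Fischer.M23.Mult.Grade

open Words Lift
open scoped commutatorElement

universe u v

/-! ### Words in groups generated by involutions -/

section Words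

variable {Q : Type*} [Group Q]

theorem lift_wP {n : ℕ} (f : Fin n → Q) (l : List (Fin n)) : FreeGroup.lift f (wP l) = (l.map f).prod := by
  simp [wP, FreeGroup.lift_mk, Function.comp_def]

/-- The Coxeter relations for a labelled family. -/
structure NodesL {n : ℕ} (l : Fin n → Fin 10) (f : Fin n → Q) : Prop where
  sq : ∀ i, f i * f i = 1
  br : ∀ i j, adj10 (l i) (l j) = true → f i * f j * f i = f j * f i * f j
  cm : ∀ i j, i ≠ j → adj10 (l i) (l j) = false → f i * f j = f j * f i

theorem NodesG.toL {f : Fin 10 → Q} (hf : NodesG f) {n : ℕ} {l r : Fin n → Fin 10} (hr : Function.Injective r)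
    (hlr : ∀ i j, adj10 (l i) (l j) = adj10 (r i) (r j)) : NodesL l (f ∘ r) where
  sq i := hf.sq _
  br i j h := hf.br _ _ (by rw [← hlr]; exact h)
  cm i j hne h := hf.cm _ _ (fun e => hne (hr e)) (by rw [← hlr]; exact h)

theorem cW_prod {n : ℕ} (f : Fin n → Q) (m : ℕ) (i j : Fin n) :
    ((cW m i j).map f).prod = (f i * f j) ^ m := by
  induction m with
  | zero => simp [cW]
  | succ m ih =>
    have : cW (m + 1) i j = [i, j] ++ cW m i j := by
      simp [cW, List.replicate_succ]
    rw [this, List.map_append, List.prod_append, ih, pow_succ']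
    simp

theorem rel_cox {n : ℕ} {l : Fin n → Fin 10} {f : Fin n → Q} (hf : NodesL l f) {w : List (Fin n)}
    (hw : w ∈ coxW l) : (w.map f).prod = 1 := by
  simp only [coxW, List.mem_flatMap, List.mem_filterMap, List.mem_finRange, true_and] at hw
  obtain ⟨i, j, hw⟩ := hw
  by_cases hij : i = j
  · rw [if_pos hij] at hw
    simp only [Option.some.injEq] at hw
    subst hij
    subst hw
    simpa using hf.sq i
  · rw [if_neg hij] at hw
    by_cases hlt : i.1 < j.1
    · rw [if_pos hlt] at hw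
      simp only [Option.some.injEq] at hw
      subst hw
      rw [cW_prod]
      cases hadj : adj10 (l i) (l j) with
      | true =>
        simp only [if_true]
        have hb := hf.br i j hadj
        have hsi := hf.sq i
        have hsj := hf.sq j
        calc (f i * f j) ^ 3 = (f i * f j * f i) * (f j * f i * f j) := by
              simp only [pow_succ, pow_zero, one_mul]; group
          _ = (f j * f i * f j) * (f j * f i * f j) := by rw [hb]
          _ = f j * f i * (f j * f j) * f i * f j := by group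
          _ = 1 := by
              rw [hsj, mul_one, mul_assoc (f j), hsi, mul_one, hsj]
      | false =>
        simp only [Bool.false_eq_true, if_false]
        have hc := hf.cm i j hij hadj
        calc (f i * f j) ^ 2 = f i * f j * (f i * f j) := pow_two _
          _ = f j * f i * (f i * f j) := by rw [hc]
          _ = f j * (f i * f i) * f j := by group
          _ = 1 := by rw [hf.sq i, mul_one, hf.sq j]
    · rw [if_neg hlt] at hw
      cases hw

theorem rev_prod {n : ℕ} {f : Fin n → Q} (hf : ∀ i, f i * f i = 1) (w : List (Fin n)) :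
    (w.reverse.map f).prod = ((w.map f).prod)⁻¹ := by
  induction w with
  | nil => simp
  | cons x w ih =>
    have hi : (f x)⁻¹ = f x := inv_eq_of_mul_eq_one_left (hf x)
    simp only [List.reverse_cons, List.map_append, List.map_cons, List.map_nil, List.prod_append, ih,
      List.prod_cons, List.prod_nil, mul_one, mul_inv_rev, hi]

theorem rel_com {n : ℕ} {f : Fin n → Q} (hf : ∀ i, f i * f i = 1) (w : List (Fin n)) (x : Fin n)
    (hc : (w.map f).prod * f x = f x * (w.map f).prod) : ((comW w x).map f).prod = 1 := by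
  simp only [comW, List.map_append, List.prod_append, List.map_cons, List.map_nil, List.prod_cons,
    List.prod_nil, mul_one, rev_prod hf]
  rw [hc]
  simp [hf x]

end Words

/-! ### The graded group -/

variable {Γ : Type u} [Group Γ]

/-- The group `Γ × ℤ`. -/
abbrev AA (Γ : Type u) [Group Γ] : Type u := Γ × Multiplicative ℤ

/-- The generator of degree one above `hat x`. -/
def X (hat : Fin 10 → Γ) (x : Fin 10) : AA Γ := (hat x, Multiplicative.ofAdd 1)

/-- The central element of degree two. -/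
def Th (θ : Γ) : AA Γ := (θ, Multiplicative.ofAdd 2)

/-- The value of a word. -/
def evA (hat : Fin 10 → Γ) (l : List (Fin 10)) : AA Γ := (l.map (X hat)).prod

theorem evA_fst (hat : Fin 10 → Γ) (l : List (Fin 10)) : (evA hat l).1 = (l.map hat).prod := by
  induction l with
  | nil => rfl
  | cons x l ih =>
    simp only [evA, List.map_cons, List.prod_cons, Prod.fst_mul] at ih ⊢
    rw [ih]; rfl

theorem evA_snd (hat : Fin 10 → Γ) (l : List (Fin 10)) :
    (evA hat l).2 = Multiplicative.ofAdd (l.length : ℤ) := by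
  induction l with
  | nil => rfl
  | cons x l ih =>
    simp only [evA, List.map_cons, List.prod_cons, Prod.snd_mul, List.length_cons] at ih ⊢
    rw [ih]
    show Multiplicative.ofAdd (1 : ℤ) * Multiplicative.ofAdd (l.length : ℤ) = _
    rw [← ofAdd_add]
    congr 1
    push_cast
    ring

theorem prod_center {x : AA Γ} (h1 : x.1 ∈ Subgroup.center Γ) : x ∈ Subgroup.center (AA Γ) := by
  rw [Subgroup.mem_center_iff]
  intro y
  apply Prod.ext
  · exact Subgroup.mem_center_iff.1 h1 y.1
  · exact mul_comm _ _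

section Hats

variable {G : Type v} [Group G] {σ : Γ →* G} {g : Fin 10 → G} {hat : Fin 10 → Γ} {θ : Γ}

/-- The family `X` modulo a normal subgroup containing `Th` satisfies the Coxeter relations. -/
theorem nodes_quot (H : Hats σ g hat θ) (N : Subgroup (AA Γ)) [N.Normal] (hN : Th θ ∈ N) :
    NodesG (fun x => (QuotientGroup.mk' N) (X hat x)) where
  sq x := by
    rw [← map_mul]
    have : X hat x * X hat x = Th θ := by
      apply Prod.ext
      · exact H.sq x
      · rfl
    rw [this]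
    exact (QuotientGroup.eq_one_iff _).2 hN
  br x y hxy := by
    simp only [← map_mul]
    congr 1
    apply Prod.ext
    · exact H.br x y hxy
    · show Multiplicative.ofAdd (1 : ℤ) * Multiplicative.ofAdd 1 * Multiplicative.ofAdd 1 =
        Multiplicative.ofAdd (1 : ℤ) * Multiplicative.ofAdd 1 * Multiplicative.ofAdd 1
      rfl
  cm x y hne hxy := by
    simp only [← map_mul]
    congr 1
    apply Prod.ext
    · exact H.cm x y hne hxy
    · rfl

theorem quot_word (N : Subgroup (AA Γ)) [N.Normal] (l : List (Fin 10)) :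
    (l.map (fun x => (QuotientGroup.mk' N) (X hat x))).prod = (QuotientGroup.mk' N) (evA hat l) := by
  simp only [evA, map_list_prod, List.map_map]
  rfl

theorem sigma_word (H : Hats σ g hat θ) (l : List (Fin 10)) : σ (evA hat l).1 = (l.map g).prod := by
  rw [evA_fst, map_list_prod, List.map_map]
  congr 1
  apply List.map_congr_left
  intro x _
  exact H.lift x

/-- The element `θ` is central. -/
theorem theta_center (H : Hats σ g hat θ) (hK : σ.ker ≤ Subgroup.center Γ) : θ ∈ Subgroup.center Γ :=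
  hK (MonoidHom.mem_ker.2 H.ker)

/-- A word that is trivial in `G` is central. -/
theorem word_center (H : Hats σ g hat θ) (hK : σ.ker ≤ Subgroup.center Γ) {l : List (Fin 10)}
    (hl : (l.map g).prod = 1) : evA hat l ∈ Subgroup.center (AA Γ) :=
  prod_center (hK (MonoidHom.mem_ker.2 (by rw [sigma_word H, hl])))

/-- The map to `G` from a quotient of the graded group. -/
noncomputable def tauOf (σ : Γ →* G) (N : Subgroup (AA Γ)) [N.Normal] (hN : ∀ x ∈ N, σ x.1 = 1) : AA Γ ⧸ N →* G :=
  QuotientGroup.lift N (σ.comp (MonoidHom.fst _ _)) (fun x hx => hN x hx)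

theorem tauOf_mk (N : Subgroup (AA Γ)) [N.Normal] (hN : ∀ x ∈ N, σ x.1 = 1) (x : AA Γ) :
    tauOf σ N hN ((QuotientGroup.mk' N) x) = σ x.1 := rfl

/-- Elements of the normal closure of `Th`. -/
theorem eq_pow_of_mem (H : Hats σ g hat θ) (hK : σ.ker ≤ Subgroup.center Γ) {x : AA Γ}
    (hx : x ∈ Subgroup.normalClosure ({Th θ} : Set (AA Γ))) (n : ℤ) (hn : x.2 = Multiplicative.ofAdd (2 * n)) :
    x = Th θ ^ n := by
  have hc : Th θ ∈ Subgroup.center (AA Γ) := prod_center (theta_center H hK)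
  have hz : (Subgroup.zpowers (Th θ)).Normal := by
    refine ⟨fun y hy a => ?_⟩
    obtain ⟨m, rfl⟩ := Subgroup.mem_zpowers_iff.1 hy
    have hcm := Subgroup.mem_center_iff.1 (zpow_mem hc m) a
    show a * Th θ ^ m * a⁻¹ ∈ _
    rw [hcm]
    simp
  have hle : Subgroup.normalClosure ({Th θ} : Set (AA Γ)) ≤ Subgroup.zpowers (Th θ) :=
    Subgroup.normalClosure_le_normal (by simp)
  obtain ⟨m, rfl⟩ := Subgroup.mem_zpowers_iff.1 (hle hx)
  have h2 : ((Th θ) ^ m).2 = Multiplicative.ofAdd (2 * m) := by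
    rw [Prod.pow_snd]
    show (Multiplicative.ofAdd (2 : ℤ)) ^ m = _
    rw [← ofAdd_zsmul]
    congr 1
    simp [mul_comm]
  rw [h2] at hn
  have : 2 * m = 2 * n := Multiplicative.ofAdd.injective hn
  have : m = n := by omega
  rw [this]

end Hats

section Main

theorem mono_mul {a b c : AA Γ} (ha : a ∈ Subgroup.center (AA Γ)) (hb : b ∈ Subgroup.center (AA Γ))
    (hc : c ∈ Subgroup.center (AA Γ)) (A B C A' B' C' : ℤ) :
    a ^ A * b ^ B * c ^ C * (a ^ A' * b ^ B' * c ^ C') = a ^ (A + A') * b ^ (B + B') * c ^ (C + C') := by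
  have h := congrArg Subtype.val (show ((⟨a, ha⟩ : Subgroup.center (AA Γ)) ^ A * (⟨b, hb⟩ : Subgroup.center (AA Γ)) ^ B *
      (⟨c, hc⟩ : Subgroup.center (AA Γ)) ^ C * ((⟨a, ha⟩ : Subgroup.center (AA Γ)) ^ A' *
      (⟨b, hb⟩ : Subgroup.center (AA Γ)) ^ B' * (⟨c, hc⟩ : Subgroup.center (AA Γ)) ^ C')) =
      (⟨a, ha⟩ : Subgroup.center (AA Γ)) ^ (A + A') * (⟨b, hb⟩ : Subgroup.center (AA Γ)) ^ (B + B') *
      (⟨c, hc⟩ : Subgroup.center (AA Γ)) ^ (C + C') from by
    simp only [zpow_add]
    ac_rfl)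
  simpa using h

/-- The monomials in three central elements. -/
def monoT (a b c : AA Γ) (ha : a ∈ Subgroup.center (AA Γ)) (hb : b ∈ Subgroup.center (AA Γ))
    (hc : c ∈ Subgroup.center (AA Γ)) : Subgroup (AA Γ) where
  carrier := {x | ∃ A B C : ℤ, x = a ^ A * b ^ B * c ^ C}
  mul_mem' := by
    rintro _ _ ⟨A, B, C, rfl⟩ ⟨A', B', C', rfl⟩
    exact ⟨A + A', B + B', C + C', mono_mul ha hb hc _ _ _ _ _ _⟩
  one_mem' := ⟨0, 0, 0, by simp⟩
  inv_mem' := by
    rintro _ ⟨A, B, C, rfl⟩
    refine ⟨-A, -B, -C, ?_⟩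
    rw [eq_comm, ← mul_eq_one_iff_eq_inv', mono_mul ha hb hc]
    simp

theorem monoT_center (a b c : AA Γ) (ha : a ∈ Subgroup.center (AA Γ)) (hb : b ∈ Subgroup.center (AA Γ))
    (hc : c ∈ Subgroup.center (AA Γ)) : monoT a b c ha hb hc ≤ Subgroup.center (AA Γ) := by
  rintro _ ⟨A, B, C, rfl⟩
  exact mul_mem (mul_mem (zpow_mem ha _) (zpow_mem hb _)) (zpow_mem hc _)

instance monoT_normal (a b c : AA Γ) (ha : a ∈ Subgroup.center (AA Γ)) (hb : b ∈ Subgroup.center (AA Γ))
    (hc : c ∈ Subgroup.center (AA Γ)) : (monoT a b c ha hb hc).Normal := by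
  refine ⟨fun x hx y => ?_⟩
  have := Subgroup.mem_center_iff.1 (monoT_center a b c ha hb hc hx) y
  rw [this]
  simpa using hx

theorem comm_central {a b k l : Γ} (hk : k ∈ Subgroup.center Γ) (hl : l ∈ Subgroup.center Γ) :
    ⁅a * k, b * l⁆ = ⁅a, b⁆ := by
  have hk' := Subgroup.mem_center_iff.1 hk
  have hl' := Subgroup.mem_center_iff.1 hl
  simp only [commutatorElement_def, mul_inv_rev]
  calc a * k * (b * l) * (k⁻¹ * a⁻¹) * (l⁻¹ * b⁻¹)
      = a * (k * b) * l * k⁻¹ * a⁻¹ * l⁻¹ * b⁻¹ := by group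
    _ = a * b * (k * l) * k⁻¹ * a⁻¹ * l⁻¹ * b⁻¹ := by rw [← hk' b]; group
    _ = a * b * (l * k) * k⁻¹ * a⁻¹ * l⁻¹ * b⁻¹ := by rw [hl' k]
    _ = a * b * l * a⁻¹ * l⁻¹ * b⁻¹ := by group
    _ = a * b * (l * a⁻¹) * l⁻¹ * b⁻¹ := by group
    _ = a * b * (a⁻¹ * l) * l⁻¹ * b⁻¹ := by rw [hl' a⁻¹]
    _ = a * b * a⁻¹ * b⁻¹ := by group

variable {G : Type u} [Group G] {σ : Γ →* G} {g : Fin 10 → G} {hat : Fin 10 → Γ} {θ : Γ}

theorem ker_form (H : Hats σ g hat θ) (hK : σ.ker ≤ Subgroup.center Γ) (z2W : List (Fin 10))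
    (hz1 : (z1W.map g).prod = 1) (hz2 : (z2W.map g).prod = 1)
    (hgen : Subgroup.closure (Set.range g) = ⊤)
    (hU : ∀ (Q' : Type u) [Group Q'] (f : Fin 10 → Q'), NodesG f → (z1W.map f).prod = 1 → (z2W.map f).prod = 1 →
      ∃ φ : G →* Q', ∀ x, φ (g x) = f x)
    {k : Γ} (hk : σ k = 1) (hkc : k ∈ commutator Γ) :
    ∃ A B C : ℤ, ((k, 1) : AA Γ) = Th θ ^ A * evA hat z1W ^ B * evA hat z2W ^ C := by
  have ha : Th θ ∈ Subgroup.center (AA Γ) := prod_center (theta_center H hK)
  have hb := word_center H hK hz1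
  have hc := word_center H hK hz2
  set T := monoT (Th θ) (evA hat z1W) (evA hat z2W) ha hb hc with hT
  have hTa : Th θ ∈ T := ⟨1, 0, 0, by simp⟩
  have hTb : evA hat z1W ∈ T := ⟨0, 1, 0, by simp⟩
  have hTc : evA hat z2W ∈ T := ⟨0, 0, 1, by simp⟩
  have hnodes := nodes_quot H T hTa
  have hw1 : (z1W.map (fun x => (QuotientGroup.mk' T) (X hat x))).prod = 1 := by
    rw [quot_word]
    exact (QuotientGroup.eq_one_iff _).2 hTb
  have hw2 : (z2W.map (fun x => (QuotientGroup.mk' T) (X hat x))).prod = 1 := by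
    rw [quot_word]
    exact (QuotientGroup.eq_one_iff _).2 hTc
  obtain ⟨φ, hφ⟩ := hU _ _ hnodes hw1 hw2
  have hTσ : ∀ x ∈ T, σ x.1 = 1 := by
    rintro _ ⟨A, B, C, rfl⟩
    have e : ∀ y : AA Γ, σ y.1 = (σ.comp (MonoidHom.fst _ _)) y := fun _ => rfl
    rw [e, map_mul, map_mul, map_zpow, map_zpow, map_zpow, ← e, ← e, ← e, sigma_word H, sigma_word H, hz1, hz2]
    have : σ (Th θ).1 = 1 := H.ker
    rw [this]
    simp
  set τ := tauOf σ T hTσ with hτ
  have hτφ : ∀ y : G, τ (φ y) = y := by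
    intro y
    have hy : y ∈ Subgroup.closure (Set.range g) := by rw [hgen]; trivial
    induction hy using Subgroup.closure_induction with
    | mem y hy =>
      obtain ⟨x, rfl⟩ := hy
      rw [hφ]
      exact H.lift x
    | one => simp
    | mul a b _ _ iha ihb => rw [map_mul, map_mul, iha, ihb]
    | inv a _ ih => rw [map_inv, map_inv, ih]
  set U := Subgroup.closure (Set.range (X hat)) with hUdef
  have h1 : ∀ y : G, ∃ u ∈ U, σ u.1 = y := by
    intro y
    have hy : y ∈ Subgroup.closure (Set.range g) := by rw [hgen]; trivial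
    induction hy using Subgroup.closure_induction with
    | mem y hy =>
      obtain ⟨x, rfl⟩ := hy
      exact ⟨X hat x, Subgroup.subset_closure ⟨x, rfl⟩, H.lift x⟩
    | one => exact ⟨1, one_mem _, map_one _⟩
    | mul a b _ _ iha ihb =>
      obtain ⟨u, hu, hu'⟩ := iha
      obtain ⟨v, hv, hv'⟩ := ihb
      exact ⟨u * v, mul_mem hu hv, by simp [hu', hv']⟩
    | inv a _ ih =>
      obtain ⟨u, hu, hu'⟩ := ih
      exact ⟨u⁻¹, inv_mem hu, by simp [hu']⟩
  have hcomm : commutator Γ ≤ U.comap (MonoidHom.inl Γ (Multiplicative ℤ)) := by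
    rw [commutator_def, Subgroup.commutator_le]
    intro a _ b _
    obtain ⟨u, hu, hu'⟩ := h1 (σ a)
    obtain ⟨v, hv, hv'⟩ := h1 (σ b)
    have hka : u.1⁻¹ * a ∈ Subgroup.center Γ := hK (by rw [MonoidHom.mem_ker]; simp [hu'])
    have hkb : v.1⁻¹ * b ∈ Subgroup.center Γ := hK (by rw [MonoidHom.mem_ker]; simp [hv'])
    have e : ⁅a, b⁆ = ⁅u.1, v.1⁆ := by
      have := comm_central (a := u.1) (b := v.1) hka hkb
      simpa using this
    rw [Subgroup.mem_comap, e]
    have e2 : MonoidHom.inl Γ (Multiplicative ℤ) ⁅u.1, v.1⁆ = ⁅u, v⁆ := by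
      apply Prod.ext
      · rfl
      · show (1 : Multiplicative ℤ) = ⁅u.2, v.2⁆
        exact (commutatorElement_eq_one_iff_mul_comm.2 (mul_comm _ _)).symm
    rw [e2, commutatorElement_def]
    exact mul_mem (mul_mem (mul_mem hu hv) (inv_mem hu)) (inv_mem hv)
  have h3 : ∀ u ∈ U, ∃ y, (QuotientGroup.mk' T) u = φ y := by
    intro u hu
    induction hu using Subgroup.closure_induction with
    | mem u hu =>
      obtain ⟨x, rfl⟩ := hu
      exact ⟨g x, (hφ x).symm⟩
    | one => exact ⟨1, by simp⟩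
    | mul a b _ _ iha ihb =>
      obtain ⟨u, hu⟩ := iha
      obtain ⟨v, hv⟩ := ihb
      exact ⟨u * v, by rw [map_mul, map_mul, hu, hv]⟩
    | inv a _ ih =>
      obtain ⟨u, hu⟩ := ih
      exact ⟨u⁻¹, by rw [map_inv, map_inv, hu]⟩
  have hkU : ((k, 1) : AA Γ) ∈ U := hcomm hkc
  obtain ⟨y, hy⟩ := h3 _ hkU
  have hy1 : y = 1 := by
    have := hτφ y
    rw [← hy, hτ, tauOf_mk] at this
    rw [← this]
    exact hk
  rw [hy1, map_one] at hy
  exact (QuotientGroup.eq_one_iff _).1 hy

theorem ker_trivial (H : Hats σ g hat θ) (hK : σ.ker ≤ Subgroup.center Γ) (z2W : List (Fin 10))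
    (hz1 : (z1W.map g).prod = 1) (hz2 : (z2W.map g).prod = 1)
    (hgen : Subgroup.closure (Set.range g) = ⊤)
    (hU : ∀ (Q' : Type u) [Group Q'] (f : Fin 10 → Q'), NodesG f → (z1W.map f).prod = 1 → (z2W.map f).prod = 1 →
      ∃ φ : G →* Q', ∀ x, φ (g x) = f x)
    (hR1 : evA hat z1W ^ (2 : ℤ) = Th θ ^ (63 : ℤ)) (hR2 : evA hat z2W = Th θ ^ (45 : ℤ))
    (hlen1 : z1W.length = 63) (hlen2 : z2W.length = 90)
    {k : Γ} (hk : σ k = 1) (hkc : k ∈ commutator Γ) : k = 1 := by
  obtain ⟨A, B, C, h⟩ := ker_form H hK z2W hz1 hz2 hgen hU hk hkc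
  -- the degrees
  have hd : (2 : ℤ) * A + 63 * B + 90 * C = 0 := by
    have h2 := congrArg Prod.snd h
    simp only [Prod.snd_mul, Prod.pow_snd, evA_snd, hlen1, hlen2] at h2
    have e : (Th θ).2 = Multiplicative.ofAdd (2 : ℤ) := rfl
    rw [e] at h2
    simp only [← ofAdd_zsmul, ← ofAdd_add] at h2
    have h3 := Multiplicative.ofAdd.injective h2
    simp only [smul_eq_mul, Nat.cast_ofNat] at h3
    have h4 : (1 : Multiplicative ℤ) = Multiplicative.ofAdd (0 : ℤ) := rfl
    have h5 : (0 : ℤ) = A * 2 + B * 63 + C * 90 := by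
      have h6 := congrArg (fun x : Multiplicative ℤ => Multiplicative.toAdd x) h2
      simpa [mul_comm] using h6
    linarith
  obtain ⟨B', rfl⟩ : ∃ B', B = 2 * B' := ⟨B / 2, by omega⟩
  have e1 : evA hat z1W ^ (2 * B') = Th θ ^ (63 * B') := by
    rw [zpow_mul, hR1, ← zpow_mul]
  rw [e1, hR2, ← zpow_mul, ← zpow_add, ← zpow_add] at h
  have hm : A + 63 * B' + 45 * C = 0 := by omega
  rw [hm, zpow_zero] at h
  exact congrArg Prod.fst h

end Main

end Cfsg.Agent.Lib.Fischer.M23.Mult.Grade
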