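/-
The Weyl groups of types `E₆`, `E₇`, `E₈`, presented by their Coxeter relations: their actions on `27`, `56` and `240`
points are faithful.
-/
import Cfsg.Agent.Lib.Compute.TC.MWA4.Final
import Cfsg.Agent.Lib.Compute.TC.MWD5.Final
import Cfsg.Agent.Lib.Compute.TC.MWE6C.Chain
import Cfsg.Agent.Lib.Compute.TC.MWE7C.Chain
import Cfsg.Agent.Lib.Compute.TC.MWE8C.Chain

set_option autoImplicit false

namespace Cfsg.Agent.Lib.Fischer.M23.Mult.Weyl

open Cfsg.Agent.Lib.Compute.ToddCoxeterCore Cfsg.Agent.Lib.Compute.ToddCoxeterPresented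
  Cfsg.Agent.Lib.Compute.TCFast Cfsg.Agent.Lib.Compute.TCChain
open Cfsg.Agent.Lib.Compute.TC

/-- `A₄` in `D₅`. -/
def g4 (i : Fin 4) : Fin 5 := List.getD [1, 2, 3, 4] i 0
/-- `D₅` in `E₆`. -/
def g5 (i : Fin 5) : Fin 6 := List.getD [1, 2, 3, 4, 5] i 0
/-- `E₆` in `E₇`. -/
def g6 (i : Fin 6) : Fin 7 := List.getD [0, 1, 2, 3, 4, 6] i 0
/-- `E₇` in `E₈`. -/
def g7 (i : Fin 7) : Fin 8 := List.getD [0, 1, 2, 3, 4, 5, 7] i 0

theorem rel4 : ∀ r ∈ MWA4.D.rs, FreeGroup.map g4 r ∈ MWD5.D.rs := by decide +kernel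
theorem rel5 : ∀ r ∈ MWD5.D.rs, FreeGroup.map g5 r ∈ MWE6.D.rs := by decide +kernel
theorem rel6 : ∀ r ∈ MWE6.D.rs, FreeGroup.map g6 r ∈ MWE7.D.rs := by decide +kernel
theorem rel7 : ∀ r ∈ MWE7.D.rs, FreeGroup.map g7 r ∈ MWE8.D.rs := by decide +kernel

theorem up4 : Finite (PresentedGroup MWA4.RR) ∧ Nat.card (PresentedGroup MWA4.RR) ≤ 120 := by
  have h := card_of_index rfl MWA4.index
  exact ⟨Nat.finite_of_card_ne_zero (by omega), h.le⟩

theorem up5 : Finite (PresentedGroup MWD5.RR) ∧ Nat.card (PresentedGroup MWD5.RR) ≤ 16 * 120 := by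
  refine card_le_presented g4 (fun r hr => rel4 r hr) ?_ MWD5.index (by norm_num) up4
  intro x
  simp [MWD5.D, g4, Fin.exists_fin_succ]

theorem up6 : Finite (PresentedGroup MWE6.RR) ∧ Nat.card (PresentedGroup MWE6.RR) ≤ 27 * (16 * 120) := by
  refine card_le_presented g5 (fun r hr => rel5 r hr) ?_ MWE6.index (by norm_num) up5
  intro x
  simp [MWE6.D, g5, Fin.exists_fin_succ]

theorem up7 : Finite (PresentedGroup MWE7.RR) ∧ Nat.card (PresentedGroup MWE7.RR) ≤ 56 * (27 * (16 * 120)) := by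
  refine card_le_presented g6 (fun r hr => rel6 r hr) ?_ MWE7.index (by norm_num) up6
  intro x
  simp [MWE7.D, g6, Fin.exists_fin_succ]

theorem up8 : Finite (PresentedGroup MWE8.RR) ∧
    Nat.card (PresentedGroup MWE8.RR) ≤ 240 * (56 * (27 * (16 * 120))) := by
  refine card_le_presented g7 (fun r hr => rel7 r hr) ?_ MWE8.index (by norm_num) up7
  intro x
  simp [MWE8.D, g7, Fin.exists_fin_succ]

theorem inj6 : Function.Injective (phiG MWE6.hR MWE6.small MWE6.big MWE6.hgens) := by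
  haveI := up6.1
  exact (phi_inj MWE6.hR MWE6.small MWE6.big MWE6.hgens (n := 51840) (by simpa using up6.2)
    MWE6C.next0 MWE6C.ls MWE6C.fix0 MWE6C.chainOK (le_of_eq MWE6C.prodEq.symm)).1

theorem inj7 : Function.Injective (phiG MWE7.hR MWE7.small MWE7.big MWE7.hgens) := by
  haveI := up7.1
  exact (phi_inj MWE7.hR MWE7.small MWE7.big MWE7.hgens (n := 2903040) (by simpa using up7.2)
    MWE7C.next0 MWE7C.ls MWE7C.fix0 MWE7C.chainOK (le_of_eq MWE7C.prodEq.symm)).1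

theorem inj8 : Function.Injective (phiG MWE8.hR MWE8.small MWE8.big MWE8.hgens) := by
  haveI := up8.1
  exact (phi_inj MWE8.hR MWE8.small MWE8.big MWE8.hgens (n := 696729600) (by simpa using up8.2)
    MWE8C.next0 MWE8C.ls MWE8C.fix0 MWE8C.chainOK (le_of_eq MWE8C.prodEq.symm)).1

end Cfsg.Agent.Lib.Fischer.M23.Mult.Weyl
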