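/-
Facts in the presented group `Fi₂₃`: the Coxeter relations of the generators; the images of the Weyl groups of types
`E₆` and `E₈` are faithful (for `E₈`: up to a central involution); the word `(b c d h e f d e c d h i)^4` is trivial.
-/
import Cfsg.Agent.S1697
import Cfsg.Agent.Lib.Fischer.M23.Mult.Weyl
import Cfsg.Agent.Lib.Fischer.M23.Mult.Grade

set_option autoImplicit false
set_option maxRecDepth 100000

namespace Cfsg.Agent.Lib.Fischer.M23.Mult.Key

open Cfsg.Agent.Lib.Compute.ToddCoxeterCore Cfsg.Agent.Lib.Compute.ToddCoxeterPresented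
  Cfsg.Agent.Lib.Compute.TCFast Cfsg.Agent.Lib.Compute.TCChain
open Cfsg.Agent.Lib.Compute.TC
open Cfsg.Spor Words Lift Grade Weyl

/-- The nodes of the diagram. -/
def nd : Fin 10 → Fi23.Gen := ![.a, .b, .c, .d, .e, .f, .g, .j, .h, .i]

/-- The index of a generator. -/
def idx : Fi23.Gen → Fin 10
  | .a => 0 | .b => 1 | .c => 2 | .d => 3 | .e => 4 | .f => 5 | .g => 6 | .j => 7 | .h => 8 | .i => 9

theorem idx_nd : ∀ x, idx (nd x) = x := by decide
theorem nd_idx : ∀ y, nd (idx y) = y := by intro y; cases y <;> rfl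

/-- The generators of the presented group. -/
def gG (x : Fin 10) : Fi23 := PresentedGroup.of (nd x)

theorem label_eq : ∀ x y : Fi23.Gen, coxLabel Fi23.edges x y =
    if idx x = idx y then 1 else if adj10 (idx x) (idx y) = true then 3 else 2 := by
  intro x y
  cases x <;> cases y <;> decide

theorem mem_nodes : ∀ x : Fi23.Gen, x ∈ coxNodes Fi23.edges := by
  intro x
  cases x <;> decide

section Nodes

variable {Q : Type*} [Group Q]

theorem nodes_of_label {f : Fin 10 → Q}
    (h : ∀ x y, (f x * f y) ^ (if x = y then 1 else if adj10 x y = true then 3 else 2) = 1) : NodesG f := by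
  have hsq : ∀ x, f x * f x = 1 := by
    intro x
    simpa using h x x
  refine ⟨hsq, ?_, ?_⟩
  · intro x y hxy
    have hne : x ≠ y := by
      rintro rfl
      revert hxy
      revert x
      decide
    have h3 := h x y
    rw [if_neg hne, if_pos hxy] at h3
    have hxi : (f x)⁻¹ = f x := inv_eq_of_mul_eq_one_left (hsq x)
    have hyi : (f y)⁻¹ = f y := inv_eq_of_mul_eq_one_left (hsq y)
    have h4 : f x * f y * f x * (f y * f x * f y) = 1 := by
      rw [← h3]
      simp only [pow_succ, pow_zero, one_mul]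
      group
    have h5 := eq_inv_of_mul_eq_one_left h4
    rw [h5]
    simp only [mul_inv_rev, hxi, hyi]
    group
  · intro x y hne hxy
    have h2 := h x y
    rw [if_neg hne, if_neg (by simp [hxy])] at h2
    have hxi : (f x)⁻¹ = f x := inv_eq_of_mul_eq_one_left (hsq x)
    have hyi : (f y)⁻¹ = f y := inv_eq_of_mul_eq_one_left (hsq y)
    have h4 : f x * f y * (f x * f y) = 1 := by rw [← h2, pow_two]
    have h5 := eq_inv_of_mul_eq_one_left h4
    rw [h5]
    simp only [mul_inv_rev, hxi, hyi]

theorem label_of_nodes {f : Fin 10 → Q} (hf : NodesG f) (x y : Fin 10) :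
    (f x * f y) ^ (if x = y then 1 else if adj10 x y = true then 3 else 2) = 1 := by
  by_cases hxy : x = y
  · subst hxy
    simpa using hf.sq x
  · rw [if_neg hxy]
    cases hadj : adj10 x y with
    | true =>
      simp only [if_true]
      have hb := hf.br x y hadj
      calc (f x * f y) ^ 3 = (f x * f y * f x) * (f y * f x * f y) := by
            simp only [pow_succ, pow_zero, one_mul]; group
        _ = (f y * f x * f y) * (f y * f x * f y) := by rw [hb]
        _ = f y * f x * (f y * f y) * f x * f y := by group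
        _ = 1 := by
            rw [hf.sq y, mul_one, mul_assoc (f y), hf.sq x, mul_one, hf.sq y]
    | false =>
      simp only [Bool.false_eq_true, if_false]
      have hc := hf.cm x y hxy hadj
      calc (f x * f y) ^ 2 = f x * f y * (f x * f y) := pow_two _
        _ = f y * f x * (f x * f y) := by rw [hc]
        _ = f y * (f x * f x) * f y := by group
        _ = 1 := by rw [hf.sq x, mul_one, hf.sq y]

theorem flat_prod {α : Type*} (f : α → Q) (L : List α) (n : ℕ) :
    (((List.replicate n L).flatten).map f).prod = ((L.map f).prod) ^ n := by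
  induction n with
  | zero => simp
  | succ n ih =>
    rw [List.replicate_succ, List.flatten_cons, List.map_append, List.prod_append, ih, pow_succ']

end Nodes

theorem nodes_gG : NodesG gG := by
  apply nodes_of_label
  intro x y
  have h : (FreeGroup.of (nd x) * FreeGroup.of (nd y)) ^ coxLabel Fi23.edges (nd x) (nd y) ∈
      coxRelators Fi23.edges ∪ {r | r ∈ Fi23.extra} :=
    Or.inl ⟨nd x, mem_nodes _, nd y, mem_nodes _, rfl⟩
  have h1 := PresentedGroup.one_of_mem h
  rw [map_pow, map_mul, label_eq, idx_nd, idx_nd] at h1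
  exact h1

/-- The spider word. -/
def z2W : List (Fin 10) := (List.replicate 10 ([3, 2, 1, 3, 4, 5, 3, 8, 9] : List (Fin 10))).flatten

theorem z1_gG : (z1W.map gG).prod = 1 := by
  have h : (Fi23.a * Fi23.b * Fi23.c * Fi23.d * Fi23.e * Fi23.f * Fi23.h) ^ 9 ∈
      coxRelators Fi23.edges ∪ {r | r ∈ Fi23.extra} := Or.inr (by simp [Fi23.extra])
  have h1 := PresentedGroup.one_of_mem h
  rw [z1W, flat_prod]
  rw [map_pow] at h1
  rw [← h1]
  congr 1

theorem z2_gG : (z2W.map gG).prod = 1 := by
  have h : (Fi23.d * Fi23.c * Fi23.b * Fi23.d * Fi23.e * Fi23.f * Fi23.d * Fi23.h * Fi23.i) ^ 10 ∈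
      coxRelators Fi23.edges ∪ {r | r ∈ Fi23.extra} := Or.inr (by simp [Fi23.extra])
  have h1 := PresentedGroup.one_of_mem h
  rw [z2W, flat_prod]
  rw [map_pow] at h1
  rw [← h1]
  congr 1

theorem gen_gG : Subgroup.closure (Set.range gG) = ⊤ := by
  have : Set.range gG = Set.range (PresentedGroup.of (rels := coxRelators Fi23.edges ∪ {r | r ∈ Fi23.extra})) := by
    ext z
    constructor
    · rintro ⟨x, rfl⟩
      exact ⟨nd x, rfl⟩
    · rintro ⟨y, rfl⟩
      exact ⟨idx y, by simp [gG, nd_idx]⟩
  rw [this]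
  exact PresentedGroup.closure_range_of _

theorem hU_gG (Q' : Type) [Group Q'] (f : Fin 10 → Q') (hf : NodesG f) (h1 : (z1W.map f).prod = 1)
    (h2 : (z2W.map f).prod = 1) : ∃ φ : Fi23 →* Q', ∀ x, φ (gG x) = f x := by
  have hrel : ∀ r ∈ coxRelators Fi23.edges ∪ {r | r ∈ Fi23.extra}, FreeGroup.lift (f ∘ idx) r = 1 := by
    rintro r (⟨x, -, y, -, rfl⟩ | hr)
    · rw [map_pow, map_mul, FreeGroup.lift_apply_of, FreeGroup.lift_apply_of, label_eq]
      exact label_of_nodes hf (idx x) (idx y)
    · simp only [Fi23.extra, Set.mem_setOf_eq, List.mem_cons, List.not_mem_nil, or_false] at hr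
      rcases hr with rfl | rfl
      · rw [z2W, flat_prod] at h2
        rw [← h2, map_pow]
        congr 1
      · rw [z1W, flat_prod] at h1
        rw [← h1, map_pow]
        congr 1
  refine ⟨PresentedGroup.toGroup (f := f ∘ idx) hrel, fun x => ?_⟩
  have : gG x = PresentedGroup.of (nd x) := rfl
  rw [this, PresentedGroup.toGroup.of]
  simp [idx_nd]

/-! ### Coset tables -/

section Tables

universe w
variable {α : Type w} [DecidableEq α] {R : Set (FreeGroup α)} {D : Data α} {c : Cfg}

/-- A word fixing the base point lies in the subgroup. -/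
theorem mem_of_walk (hR : ∀ r, r ∈ R ↔ r ∈ D.rs) (hs : Small D c) (hb : Big D c) (hgens : ∀ a, (a, true) ∈ D.lets)
    (w : FreeGroup α) (h : c.walkEnd (toLetters D.lets w) 0 = 0) : PresentedGroup.mk R w ∈ HOf R D.Hs := by
  obtain ⟨e, he, h0⟩ := exists_equiv hR hs hb hgens
  have h1 := he w ((1 : PresentedGroup R) : PresentedGroup R ⧸ HOf R D.Hs)
  rw [h0, h] at h1
  have h2 : e (PresentedGroup.mk R w • ((1 : PresentedGroup R) : PresentedGroup R ⧸ HOf R D.Hs)) =
      e ((1 : PresentedGroup R) : PresentedGroup R ⧸ HOf R D.Hs) := Fin.ext (h1.trans h0.symm)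
  have h3 := e.injective h2
  rw [mk_coset_eq] at h3
  have h4 := QuotientGroup.eq.1 h3
  simpa using h4

/-- A word acting trivially is trivial, when the action is faithful. -/
theorem one_of_walk (hR : ∀ r, r ∈ R ↔ r ∈ D.rs) (hs : Small D c) (hb : Big D c) (hgens : ∀ a, (a, true) ∈ D.lets)
    (hinj : Function.Injective (phiG hR hs hb hgens)) (w : FreeGroup α)
    (h : ∀ i, i < c.N → c.walkEnd (toLetters D.lets w) i = i) : PresentedGroup.mk R w = 1 := by
  apply hinj
  rw [map_one]
  ext i
  rw [phiG_mk, lift_val hs (tok hs hb) hgens, h i i.2]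
  rfl

/-- The action of a letter. -/
theorem phi_letter (hR : ∀ r, r ∈ R ↔ r ∈ D.rs) (hs : Small D c) (hb : Big D c) (hgens : ∀ a, (a, true) ∈ D.lets)
    (a : α) (i : Fin c.N) :
    ((phiG hR hs hb hgens (PresentedGroup.of a) i : Fin c.N) : ℕ) = c.walkEnd (toLetters D.lets (FreeGroup.of a)) i := by
  show ((phiG hR hs hb hgens (PresentedGroup.mk R (FreeGroup.of a)) i : Fin c.N) : ℕ) = _
  rw [phiG_mk, lift_val hs (tok hs hb) hgens]

end Tables

/-- Actions compatible on generators are compatible. -/
theorem equivariant {β : Type*} {R' : Set (FreeGroup β)} {X Y : Type*} (φ : PresentedGroup R' →* Equiv.Perm X)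
    (ψ : PresentedGroup R' →* Equiv.Perm Y) (P : X → Y)
    (h : ∀ (x : β) (i : X), ψ (PresentedGroup.of x) (P i) = P (φ (PresentedGroup.of x) i)) :
    ∀ v i, ψ v (P i) = P (φ v i) := by
  intro v
  have hv : v ∈ Subgroup.closure (Set.range (PresentedGroup.of (rels := R'))) := by
    rw [PresentedGroup.closure_range_of]; trivial
  induction hv using Subgroup.closure_induction with
  | mem v hv =>
    obtain ⟨x, rfl⟩ := hv
    exact h x
  | one => intro i; simp
  | mul a b _ _ iha ihb =>
    intro i
    rw [map_mul, map_mul, Equiv.Perm.mul_apply, Equiv.Perm.mul_apply, ihb, iha]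
  | inv a _ ih =>
    intro i
    have h1 := ih ((φ a)⁻¹ i)
    have e : φ a ((φ a)⁻¹ i) = i := by simp
    rw [e] at h1
    rw [map_inv, map_inv, ← h1]
    simp

end Cfsg.Agent.Lib.Fischer.M23.Mult.Key
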