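/-
Tables for the multiplier of `Fi₂₃`: the subgroups generated by `E₆` and `E₈` subdiagrams are the Weyl groups (modulo
the centre for `E₈`), and the word `u₄` is trivial in the group.
-/
import Cfsg.Agent.Lib.Fischer.M23.Mult.Key

set_option autoImplicit false
set_option maxRecDepth 100000

namespace Cfsg.Agent.Lib.Fischer.M23.Mult.Facts

open Cfsg.Agent.Lib.Compute.ToddCoxeterCore Cfsg.Agent.Lib.Compute.ToddCoxeterPresented
  Cfsg.Agent.Lib.Compute.TCFast Cfsg.Agent.Lib.Compute.TCChain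
open Cfsg.Agent.Lib.Compute.TC
open Cfsg.Spor Words Lift Grade Weyl Key

/-- A word trivial on all points of a faithful table is trivial. -/
theorem one_of_letters {α : Type*} [DecidableEq α] {R : Set (FreeGroup α)} {D : Data α} {c : Cfg}
    (hR : ∀ r, r ∈ R ↔ r ∈ D.rs) (hs : Small D c) (hb : Big D c) (hgens : ∀ a, (a, true) ∈ D.lets)
    (hinj : Function.Injective (phiG hR hs hb hgens)) (w : FreeGroup α) (L : List ℕ) (hL : toLetters D.lets w = L)
    (n : ℕ) (hn : c.N = n) (h : allFrom (chkRelF c [L]) n 0 = true) : PresentedGroup.mk R w = 1 := by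
  apply one_of_walk hR hs hb hgens hinj
  intro i hi
  rw [hL]
  have h1 := allFrom_spec h i (Nat.zero_le _) (by omega)
  exact chkRelF_spec h1 L (by simp)

/-- The relations of Coxeter type give a homomorphism. -/
theorem cox_lift {Q : Type*} [Group Q] {n : ℕ} {l : Fin n → Fin 10} {f : Fin n → Q} (hf : NodesL l f)
    {r : FreeGroup (Fin n)} (hr : r ∈ relsCox l) : FreeGroup.lift f r = 1 := by
  simp only [relsCox, List.mem_map] at hr
  obtain ⟨w, hw, rfl⟩ := hr
  rw [lift_wP]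
  exact rel_cox hf hw

/-- The relations with central words give a homomorphism. -/
theorem rels_lift {Q : Type*} [Group Q] {n : ℕ} {l : Fin n → Fin 10} {f : Fin n → Q} (hf : NodesL l f)
    {u : List (Fin n)} (hu : ∀ x, (u.map f).prod * f x = f x * (u.map f).prod)
    {r : FreeGroup (Fin n)} (hr : r ∈ relsOf l u) : FreeGroup.lift f r = 1 := by
  simp only [relsOf, List.mem_map, List.mem_append] at hr
  obtain ⟨w, hw | hw, rfl⟩ := hr
  · rw [lift_wP]
    exact rel_cox hf hw
  · obtain ⟨x, -, rfl⟩ := hw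
    rw [lift_wP]
    exact rel_com hf.sq u x (hu x)

/-- The representation of `Fi₂₃` on cosets. -/
noncomputable abbrev rhoF : Fi23 →* Equiv.Perm (Fin Fi23a.cfg.N) := phiG Fi23a.hR Fi23a.small Fi23a.big Fi23a.hgens

theorem NF : Fi23a.cfg.N = 31671 := by decide +kernel

theorem letters_nd : ∀ y : Fin 10, toLetters Fi23a.D.lets (FreeGroup.of (nd y)) = [y.val] := by decide +kernel

theorem rho_gG (y : Fin 10) (j : Fin Fi23a.cfg.N) : ((rhoF (gG y) j : Fin Fi23a.cfg.N) : ℕ) = Fi23a.cfg.T y.val j.val := by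
  have h := phi_letter Fi23a.hR Fi23a.small Fi23a.big Fi23a.hgens (nd y) j
  rw [letters_nd] at h
  exact h

/-- The word `u₄` on all nodes. -/
def u4W : List (Fin 10) := (List.replicate 4 ([1, 2, 3, 8, 4, 5, 3, 4, 2, 3, 8, 9] : List (Fin 10))).flatten

/-- Its letters. -/
def lU4 : List ℕ := (u4W.map (·.val)).reverse

theorem letters_u4 : toLetters Fi23a.D.lets (FreeGroup.map nd (wP u4W)) = lU4 := by decide +kernel

theorem all_u4 : allFrom (chkRelF Fi23a.cfg [lU4]) 31671 0 = true := by decide +kernel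

theorem mk_map (l : List (Fin 10)) :
    PresentedGroup.mk Fi23a.RR (FreeGroup.map nd (wP l)) = (l.map gG).prod := by
  rw [← lift_wP]
  have : (PresentedGroup.mk Fi23a.RR).comp (FreeGroup.map nd) = FreeGroup.lift gG := by
    ext x
    simp [gG]
    rfl
  exact DFunLike.congr_fun this (wP l)

/-- The word `u₄` is trivial in `Fi₂₃`. -/
theorem u4_gG : (u4W.map gG).prod = 1 := by
  rw [← mk_map]
  exact one_of_letters Fi23a.hR Fi23a.small Fi23a.big Fi23a.hgens Cfsg.Agent.S1697.inj.1 _ _ letters_u4 _ NF all_u4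

/-! ### `E₇` -/

/-- The labels of `E₇` containing the long word. -/
def rho7 : Fin 7 → Fin 10 := ![5, 4, 3, 2, 1, 0, 8]

/-- The square of the long word on `E₇`. -/
def z7W : List (Fin 7) := (List.replicate 18 ([5, 4, 3, 2, 1, 0, 6] : List (Fin 7))).flatten

/-- Its letters. -/
def lZ7 : List ℕ := (z7W.map (·.val)).reverse

theorem letters_z7 : toLetters MWE7.D.lets (wP z7W) = lZ7 := by decide +kernel

theorem all_z7 : allFrom (chkRelF MWE7.cfg [lZ7]) 56 0 = true := by decide +kernel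

theorem N7 : MWE7.cfg.N = 56 := by decide +kernel

theorem z7_one : PresentedGroup.mk MWE7.RR (wP z7W) = 1 :=
  one_of_letters MWE7.hR MWE7.small MWE7.big MWE7.hgens inj7 _ _ letters_z7 _ N7 all_z7

theorem z7_map : z7W.map rho7 = z1W ++ z1W := by decide

theorem rho7_inj : Function.Injective rho7 := by decide

theorem rho7_adj : ∀ i j, adj10 (lE7 i) (lE7 j) = adj10 (rho7 i) (rho7 j) := by decide

/-! ### `E₆` -/

/-- The orbit of length `27` of `E₆` in the table of `Fi₂₃`. -/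
def pL6 : List ℕ := [36, 49, 68, 96, 138, 142, 201, 203, 294, 298, 432, 438, 625, 626, 634, 891, 892, 1250, 1251, 1731, 1732, 2364, 2365, 3180, 4150, 5268, 6531]

theorem N6 : MWE6.cfg.N = 27 := by decide +kernel

theorem pL6_lt : ∀ x ∈ pL6, x < 31671 := by decide +kernel

theorem getD_lt {L : List ℕ} {n : ℕ} (hn : 0 < n) (h : ∀ x ∈ L, x < n) (i : ℕ) : L.getD i 0 < n := by
  by_cases hi : i < L.length
  · rw [List.getD_eq_getElem _ _ hi]
    exact h _ (List.getElem_mem hi)
  · rw [List.getD_eq_default _ _ (by omega)]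
    exact hn

/-- The coset points of `E₆` in the table of `Fi₂₃`. -/
noncomputable def P6 (i : Fin MWE6.cfg.N) : Fin Fi23a.cfg.N :=
  ⟨pL6.getD i.1 0, by rw [NF]; exact getD_lt (by norm_num) pL6_lt _⟩

theorem letters6 : ∀ x : Fin 6, toLetters MWE6.D.lets (FreeGroup.of x) = [x.val] := by decide +kernel

theorem chk6 : (List.range 6).all (fun x => (List.range 27).all fun i =>
    Nat.beq (Fi23a.cfg.T (lE6 (Fin.ofNat 6 x)).val (pL6.getD i 0)) (pL6.getD (MWE6.cfg.T x i) 0)) = true := by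
  decide +kernel

theorem nodup6 : (List.range 27).all (fun i => (List.range 27).all fun j =>
    !(Nat.beq (pL6.getD i 0) (pL6.getD j 0)) || Nat.beq i j) = true := by
  decide +kernel

/-- The map of `W(E₆)` to `Fi₂₃`. -/
noncomputable def piE6 : PresentedGroup MWE6.RR →* Fi23 :=
  PresentedGroup.toGroup (f := gG ∘ lE6) (fun _ hr => cox_lift (Grade.NodesG.toL nodes_gG (by decide) fun _ _ => rfl) hr)

theorem piE6_of (x : Fin 6) : piE6 (PresentedGroup.of x) = gG (lE6 x) := by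
  simp [piE6, PresentedGroup.toGroup.of]

theorem P6_inj : Function.Injective P6 := by
  intro i j hij
  have h1 : pL6.getD i.1 0 = pL6.getD j.1 0 := congrArg Fin.val hij
  have hi : i.1 < 27 := by rw [← N6]; exact i.2
  have hj : j.1 < 27 := by rw [← N6]; exact j.2
  have h2 := List.all_eq_true.1 nodup6 i.1 (List.mem_range.2 hi)
  have h3 := List.all_eq_true.1 h2 j.1 (List.mem_range.2 hj)
  rw [h1] at h3
  simp at h3
  exact Fin.ext h3

theorem equi6 (x : Fin 6) (i : Fin MWE6.cfg.N) :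
    rhoF (piE6 (PresentedGroup.of x)) (P6 i) = P6 (phiG MWE6.hR MWE6.small MWE6.big MWE6.hgens (PresentedGroup.of x) i) := by
  have hi : i.1 < 27 := by rw [← N6]; exact i.2
  apply Fin.ext
  rw [piE6_of, rho_gG]
  show _ = pL6.getD ((phiG MWE6.hR MWE6.small MWE6.big MWE6.hgens (PresentedGroup.of x) i : Fin MWE6.cfg.N) : ℕ) 0
  rw [phi_letter, letters6]
  have h2 := List.all_eq_true.1 chk6 x.1 (List.mem_range.2 x.2)
  have h3 := List.all_eq_true.1 h2 i.1 (List.mem_range.2 hi)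
  have h4 := Nat.eq_of_beq_eq_true h3
  have h5 : Fi23a.cfg.T (lE6 x).val (pL6.getD i.1 0) = pL6.getD (MWE6.cfg.T x.1 i.1) 0 := by simpa using h4
  exact h5

/-- `W(E₆)` embeds in `Fi₂₃`. -/
theorem key6 (v : PresentedGroup MWE6.RR) (hv : piE6 v = 1) : v = 1 := by
  apply inj6
  rw [map_one]
  ext1 i
  apply P6_inj
  have h := equivariant (phiG MWE6.hR MWE6.small MWE6.big MWE6.hgens) (rhoF.comp piE6) P6 equi6 v i
  rw [← h]
  simp [hv]

/-! ### `E₈` -/

/-- The orbit of length `120` of `E₈` in the table of `Fi₂₃`, two to one. -/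
def pL8 : List ℕ := [0, 1, 2, 3, 4, 5, 6, 7, 8, 9, 12, 13, 16, 18, 22, 23, 25, 31, 33, 36, 45, 46, 49, 52, 65, 66, 68, 72, 95, 96, 97, 101, 138, 139, 141, 142, 201, 202, 203, 205, 208, 293, 294, 296, 298, 301, 429, 430, 432, 435, 438, 442, 620, 622, 625, 626, 630, 634, 883, 886, 887, 891, 892, 899, 1237, 1238, 1242, 1243, 1250, 1251, 1712, 1713, 1715, 1721, 1722, 1731, 1732, 2341, 2342, 2343, 2353, 2354, 2364, 2365, 3152, 3153, 3154, 3155, 3167, 3168, 3180, 4131, 4132, 4133, 4134, 4135, 4143, 4150, 5256, 5257, 5258, 5259, 5260, 5265, 5268, 6522, 6523, 6524, 6525, 6526, 6529, 6531, 7999, 8000, 8001, 8002, 8003, 8004, 8005, 8006, 7999, 8000, 8001, 8002, 8003, 8004, 8005, 8006, 6522, 6525, 6523, 6524, 6529, 6526, 6531, 5258, 5256, 5260, 5259, 5257, 5265, 5268, 4134, 4132, 4131, 4135, 4133, 4143, 4150, 3154, 3153, 3152, 3167, 3155, 3168, 3180, 2343, 2342, 2341, 2353, 2364, 2354, 2365, 1715, 1713, 1722, 1712, 1721, 1731, 1732, 1238, 1237, 1243, 1251,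 1242, 1250, 883, 887, 886, 892, 899, 891, 620, 622, 626, 630, 625, 634, 430, 429, 435, 432, 438, 442, 296, 294, 293, 298, 301, 208, 203, 202, 201, 205, 142, 141, 139, 138, 97, 96, 101, 95, 66, 65, 68, 72, 45, 46, 49, 52, 31, 33, 36, 23, 22, 25, 18, 16, 13, 12, 9, 8, 7, 6, 5, 4, 3, 2, 1, 0]

/-- The other point of the same fibre. -/
def nL8 : List ℕ := [239, 238, 237, 236, 235, 234, 233, 232, 231, 230, 229, 228, 227, 226, 224, 223, 225, 220, 221, 222, 216, 217, 218, 219, 213, 212, 214, 215, 211, 209, 208, 210, 207, 206, 205, 204, 202, 201, 200, 203, 199, 196, 195, 194, 197, 198, 189, 188, 191, 190, 192, 193, 182, 183, 186, 184, 185, 187, 176, 178, 177, 181, 179, 180, 171, 170, 174, 172, 175, 173, 166, 164, 163, 167, 165, 168, 169, 158, 157, 156, 159, 161, 160, 162, 151, 150, 149, 153, 152, 154, 155, 144, 143, 146, 142, 145, 147, 148, 136, 139, 135, 138, 137, 140, 141, 128, 130, 131, 129, 133, 132, 134, 120, 121, 122, 123, 124, 125, 126, 127, 112,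 113, 114, 115, 116, 117, 118, 119, 105, 108, 106, 107, 110, 109, 111, 100, 98, 102, 101, 99, 103, 104, 94, 92, 91, 95, 93, 96, 97, 86, 85, 84, 88, 87, 89, 90, 79, 78, 77, 80, 82, 81, 83, 72, 71, 74, 70, 73, 75, 76, 65, 64, 67, 69, 66, 68, 58, 60, 59, 62, 63, 61, 52, 53, 55, 56, 54, 57, 47, 46, 49, 48, 50, 51, 43, 42, 41, 44, 45, 40, 38, 37, 36, 39, 35, 34, 33, 32, 30, 29, 31, 28, 25, 24, 26, 27, 20, 21, 22, 23, 17, 18, 19, 15, 14, 16, 13, 12, 11, 10, 9, 8, 7, 6, 5, 4, 3, 2, 1, 0]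

theorem N8 : MWE8.cfg.N = 240 := by decide +kernel

theorem pL8_lt : ∀ x ∈ pL8, x < 31671 := by decide +kernel

theorem nL8_lt : ∀ x ∈ nL8, x < 240 := by decide +kernel

/-- The coset points of `E₈` in the table of `Fi₂₃`. -/
noncomputable def P8 (i : Fin MWE8.cfg.N) : Fin Fi23a.cfg.N :=
  ⟨pL8.getD i.1 0, by rw [NF]; exact getD_lt (by norm_num) pL8_lt _⟩

/-- The partner of a point. -/
noncomputable def neg8 (i : Fin MWE8.cfg.N) : Fin MWE8.cfg.N :=
  ⟨nL8.getD i.1 0, lt_of_lt_of_eq (getD_lt (by norm_num) nL8_lt _) N8.symm⟩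

theorem letters8 : ∀ x : Fin 8, toLetters MWE8.D.lets (FreeGroup.of x) = [x.val] := by decide +kernel

theorem chk8 : (List.range 8).all (fun x => (List.range 240).all fun i =>
    Nat.beq (Fi23a.cfg.T (lE8 (Fin.ofNat 8 x)).val (pL8.getD i 0)) (pL8.getD (MWE8.cfg.T x i) 0)) = true := by
  decide +kernel

theorem chkN8 : (List.range 8).all (fun x => (List.range 240).all fun i =>
    Nat.beq (MWE8.cfg.T x (nL8.getD i 0)) (nL8.getD (MWE8.cfg.T x i) 0)) = true := by
  decide +kernel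

theorem chkI8 : (List.range 240).all (fun i => Nat.beq (nL8.getD (nL8.getD i 0) 0) i) = true := by
  decide +kernel

theorem fib8 : (List.range 240).all (fun i => (List.range 240).all fun j =>
    !(Nat.beq (pL8.getD i 0) (pL8.getD j 0)) || (Nat.beq j i || Nat.beq j (nL8.getD i 0))) = true := by
  decide +kernel

/-- The map of `W(E₈)` to `Fi₂₃`. -/
noncomputable def piE8 : PresentedGroup MWE8.RR →* Fi23 :=
  PresentedGroup.toGroup (f := gG ∘ lE8) (fun _ hr => cox_lift (Grade.NodesG.toL nodes_gG (by decide) fun _ _ => rfl) hr)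

theorem piE8_of (x : Fin 8) : piE8 (PresentedGroup.of x) = gG (lE8 x) := by
  simp [piE8, PresentedGroup.toGroup.of]

theorem P8_fib {i j : Fin MWE8.cfg.N} (hij : P8 i = P8 j) : j = i ∨ j = neg8 i := by
  have h1 : pL8.getD i.1 0 = pL8.getD j.1 0 := congrArg Fin.val hij
  have hi : i.1 < 240 := by rw [← N8]; exact i.2
  have hj : j.1 < 240 := by rw [← N8]; exact j.2
  have h2 := List.all_eq_true.1 fib8 i.1 (List.mem_range.2 hi)
  have h3 := List.all_eq_true.1 h2 j.1 (List.mem_range.2 hj)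
  rw [h1] at h3
  simp at h3
  rcases h3 with h3 | h3
  · exact Or.inl (Fin.ext h3)
  · exact Or.inr (Fin.ext h3)

theorem neg8_neg8 (i : Fin MWE8.cfg.N) : neg8 (neg8 i) = i := by
  have hi : i.1 < 240 := by rw [← N8]; exact i.2
  have h2 := List.all_eq_true.1 chkI8 i.1 (List.mem_range.2 hi)
  exact Fin.ext (Nat.eq_of_beq_eq_true h2)

theorem equi8 (x : Fin 8) (i : Fin MWE8.cfg.N) :
    rhoF (piE8 (PresentedGroup.of x)) (P8 i) = P8 (phiG MWE8.hR MWE8.small MWE8.big MWE8.hgens (PresentedGroup.of x) i) := by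
  have hi : i.1 < 240 := by rw [← N8]; exact i.2
  apply Fin.ext
  rw [piE8_of, rho_gG]
  show _ = pL8.getD ((phiG MWE8.hR MWE8.small MWE8.big MWE8.hgens (PresentedGroup.of x) i : Fin MWE8.cfg.N) : ℕ) 0
  rw [phi_letter, letters8]
  have h2 := List.all_eq_true.1 chk8 x.1 (List.mem_range.2 x.2)
  have h3 := List.all_eq_true.1 h2 i.1 (List.mem_range.2 hi)
  have h4 := Nat.eq_of_beq_eq_true h3
  have h5 : Fi23a.cfg.T (lE8 x).val (pL8.getD i.1 0) = pL8.getD (MWE8.cfg.T x.1 i.1) 0 := by simpa using h4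
  exact h5

theorem equiN8 (x : Fin 8) (i : Fin MWE8.cfg.N) :
    phiG MWE8.hR MWE8.small MWE8.big MWE8.hgens (PresentedGroup.of x) (neg8 i) =
      neg8 (phiG MWE8.hR MWE8.small MWE8.big MWE8.hgens (PresentedGroup.of x) i) := by
  have hi : i.1 < 240 := by rw [← N8]; exact i.2
  apply Fin.ext
  show ((phiG MWE8.hR MWE8.small MWE8.big MWE8.hgens (PresentedGroup.of x) (neg8 i) : Fin MWE8.cfg.N) : ℕ) =
    nL8.getD ((phiG MWE8.hR MWE8.small MWE8.big MWE8.hgens (PresentedGroup.of x) i : Fin MWE8.cfg.N) : ℕ) 0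
  rw [phi_letter, phi_letter, letters8]
  have h2 := List.all_eq_true.1 chkN8 x.1 (List.mem_range.2 x.2)
  have h3 := List.all_eq_true.1 h2 i.1 (List.mem_range.2 hi)
  have h4 := Nat.eq_of_beq_eq_true h3
  exact h4

/-- The kernel of `W(E₈) → Fi₂₃` has exponent two. -/
theorem key8 (v : PresentedGroup MWE8.RR) (hv : piE8 v = 1) : v * v = 1 := by
  apply inj8
  rw [map_one, map_mul]
  ext1 i
  have h := equivariant (phiG MWE8.hR MWE8.small MWE8.big MWE8.hgens) (rhoF.comp piE8) P8 equi8 v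
  have hn := equivariant (phiG MWE8.hR MWE8.small MWE8.big MWE8.hgens) (phiG MWE8.hR MWE8.small MWE8.big MWE8.hgens)
    neg8 equiN8 v
  have hP : ∀ j, P8 j = P8 (phiG MWE8.hR MWE8.small MWE8.big MWE8.hgens v j) := by
    intro j
    rw [← h]
    simp [hv]
  rw [Equiv.Perm.mul_apply, Equiv.Perm.one_apply]
  rcases P8_fib (hP i) with h1 | h1
  · rw [h1, h1]
  · rw [h1, hn, h1, neg8_neg8]

end Cfsg.Agent.Lib.Fischer.M23.Mult.Facts
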