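/-
The multiplier of `Fi₂₃`: with the lifts of the generators, the two central words of degrees `63` and `90` are powers
of the common square of the lifts.
-/
import Cfsg.Agent.Lib.Compute.TC.MY6.Final
import Cfsg.Agent.Lib.Compute.TC.MY8.Final
import Cfsg.Agent.Lib.Fischer.M23.Mult.Facts

set_option autoImplicit false
set_option maxRecDepth 100000

namespace Cfsg.Agent.Lib.Fischer.M23.Mult.Main

open Cfsg.Agent.Lib.Compute.ToddCoxeterCore Cfsg.Agent.Lib.Compute.ToddCoxeterPresented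
  Cfsg.Agent.Lib.Compute.TCFast Cfsg.Agent.Lib.Compute.TCChain
open Cfsg.Agent.Lib.Compute.TC
open Cfsg.Spor Words Lift Grade Weyl Key Facts

/-- The word on `Y₂₂₂`. -/
def w6 : List (Fin 7) := w10Y6 ++ w10Y6 ++ w10Y6

theorem walk6 : MY6.cfg.walkEnd (toLetters MY6.D.lets (wP w6)) 0 = 0 := by decide +kernel

theorem walk8 : MY8.cfg.walkEnd (toLetters MY8.D.lets (wP w10Y8)) 0 = 0 := by decide +kernel

theorem map6 : w6.map lY6 = z2W ++ z2W ++ z2W := by decide

theorem map8 : w10Y8.map lY8 = z2W := by decide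

theorem u4map6 : u4Y6.map lY6 = u4W := by decide

theorem u4map8 : u4Y8.map lY8 = u4W := by decide

theorem len1 : z1W.length = 63 := by decide

theorem len2 : z2W.length = 90 := by decide

section Quot

variable {Γ : Type} [Group Γ] {σ : Γ →* Fi23} {hat : Fin 10 → Γ} {θ : Γ}

/-- The normal closure of `Th`. -/
abbrev NN (θ : Γ) : Subgroup (AA Γ) := Subgroup.normalClosure ({Th θ} : Set (AA Γ))

/-- The family in the quotient. -/
noncomputable def fQ (hat : Fin 10 → Γ) (θ : Γ) (x : Fin 10) : AA Γ ⧸ NN θ := (QuotientGroup.mk' (NN θ)) (X hat x)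

theorem th_mem : Th θ ∈ NN θ := Subgroup.subset_normalClosure rfl

theorem nodes_fQ (H : Hats σ gG hat θ) : NodesG (fQ hat θ) := nodes_quot H (NN θ) th_mem

theorem NN_sigma (H : Hats σ gG hat θ) : ∀ x ∈ NN θ, σ x.1 = 1 := by
  have h : NN θ ≤ (σ.comp (MonoidHom.fst _ _)).ker := by
    apply Subgroup.normalClosure_le_normal
    rintro _ rfl
    exact H.ker
  exact fun x hx => h hx

/-- The map back to the group. -/
noncomputable def tauQ (H : Hats σ gG hat θ) : AA Γ ⧸ NN θ →* Fi23 := tauOf σ (NN θ) (NN_sigma H)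

theorem tauQ_fQ (H : Hats σ gG hat θ) (x : Fin 10) : tauQ H (fQ hat θ x) = gG x := H.lift x

theorem tauQ_evA (H : Hats σ gG hat θ) (l : List (Fin 10)) :
    tauQ H ((QuotientGroup.mk' (NN θ)) (evA hat l)) = (l.map gG).prod := sigma_word H l

theorem word_fQ (l : List (Fin 10)) : (l.map (fQ hat θ)).prod = (QuotientGroup.mk' (NN θ)) (evA hat l) :=
  quot_word (NN θ) l

theorem evA_append (l₁ l₂ : List (Fin 10)) : evA hat (l₁ ++ l₂) = evA hat l₁ * evA hat l₂ := by
  simp [evA]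

theorem word_comp {n : ℕ} (l : Fin n → Fin 10) (w : List (Fin n)) :
    (w.map (fQ hat θ ∘ l)).prod = (QuotientGroup.mk' (NN θ)) (evA hat (w.map l)) := by
  rw [← List.map_map, word_fQ]

/-- A central word commutes with everything in the quotient. -/
theorem central_comm (H : Hats σ gG hat θ) (hK : σ.ker ≤ Subgroup.center Γ) {l : List (Fin 10)}
    (hl : (l.map gG).prod = 1) (y : AA Γ ⧸ NN θ) :
    (QuotientGroup.mk' (NN θ)) (evA hat l) * y = y * (QuotientGroup.mk' (NN θ)) (evA hat l) := by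
  induction y using QuotientGroup.induction_on with
  | H y =>
    have h := Subgroup.mem_center_iff.1 (word_center H hK hl) y
    show (QuotientGroup.mk' (NN θ)) (evA hat l) * (QuotientGroup.mk' (NN θ)) y =
      (QuotientGroup.mk' (NN θ)) y * (QuotientGroup.mk' (NN θ)) (evA hat l)
    rw [← map_mul, ← map_mul, h]

/-- An element of the image of the subgroup of a coset table. -/
theorem mem_image {n m : ℕ} {R : Set (FreeGroup (Fin n))} {R' : Set (FreeGroup (Fin m))} {Q : Type*} [Group Q]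
    (ψ : PresentedGroup R →* Q) (ψ' : PresentedGroup R' →* Q) (Hs : List (FreeGroup (Fin n)))
    (h : ∀ w ∈ Hs, ∃ v, ψ' v = ψ (PresentedGroup.mk R w)) :
    ∀ u ∈ HOf R Hs, ∃ v, ψ' v = ψ u := by
  rintro _ ⟨w, hw, rfl⟩
  induction hw using Subgroup.closure_induction with
  | mem w hw => exact h w hw
  | one => exact ⟨1, by simp⟩
  | mul a b _ _ iha ihb =>
    obtain ⟨u, hu⟩ := iha
    obtain ⟨v, hv⟩ := ihb
    exact ⟨u * v, by simp [hu, hv]⟩
  | inv a _ ih =>
    obtain ⟨u, hu⟩ := ih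
    exact ⟨u⁻¹, by simp [hu]⟩

/-- The two maps of a presented group agree through `tauQ`. -/
theorem pi_tau {m : ℕ} {lE : Fin m → Fin 10} {R' : Set (FreeGroup (Fin m))} (H : Hats σ gG hat θ)
    (ψE : PresentedGroup R' →* AA Γ ⧸ NN θ) (hψE : ∀ x, ψE (PresentedGroup.of x) = fQ hat θ (lE x))
    (pi : PresentedGroup R' →* Fi23) (hpi : ∀ x, pi (PresentedGroup.of x) = gG (lE x))
    (v : PresentedGroup R') : pi v = tauQ H (ψE v) := by
  have h : pi = (tauQ H).comp ψE := by
    apply PresentedGroup.ext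
    intro x
    rw [hpi, MonoidHom.comp_apply, hψE, tauQ_fQ]
  rw [h]
  rfl

/-- From membership in the normal closure. -/
theorem pow_of_quot (H : Hats σ gG hat θ) (hK : σ.ker ≤ Subgroup.center Γ) {l : List (Fin 10)}
    (h1 : (QuotientGroup.mk' (NN θ)) (evA hat l) = 1) (n : ℤ) (hn : (l.length : ℤ) = 2 * n) :
    evA hat l = Th θ ^ n := by
  apply eq_pow_of_mem H hK ((QuotientGroup.eq_one_iff _).1 h1)
  rw [evA_snd, hn]

variable (H : Hats σ gG hat θ) (hK : σ.ker ≤ Subgroup.center Γ)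
include H hK

/-- The word of degree `63` squares to a power of `θ`. -/
theorem hR1 : evA hat z1W ^ (2 : ℤ) = Th θ ^ (63 : ℤ) := by
  have hL : NodesL lE7 (fQ hat θ ∘ rho7) := Grade.NodesG.toL (nodes_fQ H) rho7_inj rho7_adj
  let ψ : PresentedGroup MWE7.RR →* AA Γ ⧸ NN θ :=
    PresentedGroup.toGroup (f := fQ hat θ ∘ rho7) (fun _ hr => cox_lift hL hr)
  have h1 : ψ (PresentedGroup.mk MWE7.RR (wP z7W)) = 1 := by rw [z7_one, map_one]
  have h2 : ψ (PresentedGroup.mk MWE7.RR (wP z7W)) = (QuotientGroup.mk' (NN θ)) (evA hat (z1W ++ z1W)) := by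
    show FreeGroup.lift (fQ hat θ ∘ rho7) (wP z7W) = _
    rw [lift_wP, word_comp, z7_map]
  rw [h2] at h1
  have h3 := pow_of_quot H hK h1 63 (by rw [List.length_append, len1]; norm_num)
  rw [zpow_two, ← evA_append]
  exact h3

/-- The cube of the word of degree `90` is a power of `θ`. -/
theorem hR2a : evA hat (z2W ++ z2W ++ z2W) = Th θ ^ (135 : ℤ) := by
  have hL : NodesL lY6 (fQ hat θ ∘ lY6) := Grade.NodesG.toL (nodes_fQ H) (by decide) (fun _ _ => rfl)
  have hu : ∀ x, (u4Y6.map (fQ hat θ ∘ lY6)).prod * (fQ hat θ ∘ lY6) x =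
      (fQ hat θ ∘ lY6) x * (u4Y6.map (fQ hat θ ∘ lY6)).prod := by
    intro x
    rw [word_comp, u4map6]
    exact central_comm H hK u4_gG _
  let ψ : PresentedGroup MY6.RR →* AA Γ ⧸ NN θ :=
    PresentedGroup.toGroup (f := fQ hat θ ∘ lY6) (fun _ hr => rels_lift hL hu hr)
  have hLE : NodesL lE6 (fQ hat θ ∘ lE6) := Grade.NodesG.toL (nodes_fQ H) (by decide) (fun _ _ => rfl)
  let ψE : PresentedGroup MWE6.RR →* AA Γ ⧸ NN θ :=
    PresentedGroup.toGroup (f := fQ hat θ ∘ lE6) (fun _ hr => cox_lift hLE hr)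
  have hψE : ∀ x, ψE (PresentedGroup.of x) = fQ hat θ (lE6 x) := fun x => by
    simp [ψE, PresentedGroup.toGroup.of]
  have hm := mem_of_walk MY6.hR MY6.small MY6.big MY6.hgens (wP w6) walk6
  obtain ⟨v, hv⟩ := mem_image ψ ψE MY6.D.Hs (by
    intro w hw
    have : ∀ i : Fin 6, ψE (PresentedGroup.of i) = ψ (PresentedGroup.mk MY6.RR (FreeGroup.of (Fin.castSucc i))) := by
      intro i
      rw [hψE]
      show _ = FreeGroup.lift (fQ hat θ ∘ lY6) (FreeGroup.of (Fin.castSucc i))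
      rw [FreeGroup.lift_apply_of]
      have e : lY6 (Fin.castSucc i) = lE6 i := by revert i; decide
      simp only [Function.comp_apply, e]
    simp only [MY6.D, List.mem_cons, List.not_mem_nil, or_false] at hw
    rcases hw with rfl | rfl | rfl | rfl | rfl | rfl
    · exact ⟨_, this 0⟩
    · exact ⟨_, this 1⟩
    · exact ⟨_, this 2⟩
    · exact ⟨_, this 3⟩
    · exact ⟨_, this 4⟩
    · exact ⟨_, this 5⟩) _ hm
  have h2 : ψ (PresentedGroup.mk MY6.RR (wP w6)) = (QuotientGroup.mk' (NN θ)) (evA hat (z2W ++ z2W ++ z2W)) := by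
    show FreeGroup.lift (fQ hat θ ∘ lY6) (wP w6) = _
    rw [lift_wP, word_comp, map6]
  rw [h2] at hv
  have h3 := pi_tau H ψE hψE piE6 piE6_of v
  rw [hv, tauQ_evA] at h3
  have h4 : piE6 v = 1 := by
    rw [h3]
    simp [z2_gG]
  have h5 := key6 v h4
  rw [h5, map_one] at hv
  exact pow_of_quot H hK hv.symm 135 (by simp only [List.length_append, len2]; norm_num)

/-- The square of the word of degree `90` is a power of `θ`. -/
theorem hR2b : evA hat (z2W ++ z2W) = Th θ ^ (90 : ℤ) := by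
  have hL : NodesL lY8 (fQ hat θ ∘ lY8) := Grade.NodesG.toL (nodes_fQ H) (by decide) (fun _ _ => rfl)
  have hu : ∀ x, (u4Y8.map (fQ hat θ ∘ lY8)).prod * (fQ hat θ ∘ lY8) x =
      (fQ hat θ ∘ lY8) x * (u4Y8.map (fQ hat θ ∘ lY8)).prod := by
    intro x
    rw [word_comp, u4map8]
    exact central_comm H hK u4_gG _
  let ψ : PresentedGroup MY8.RR →* AA Γ ⧸ NN θ :=
    PresentedGroup.toGroup (f := fQ hat θ ∘ lY8) (fun _ hr => rels_lift hL hu hr)
  have hLE : NodesL lE8 (fQ hat θ ∘ lE8) := Grade.NodesG.toL (nodes_fQ H) (by decide) (fun _ _ => rfl)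
  let ψE : PresentedGroup MWE8.RR →* AA Γ ⧸ NN θ :=
    PresentedGroup.toGroup (f := fQ hat θ ∘ lE8) (fun _ hr => cox_lift hLE hr)
  have hψE : ∀ x, ψE (PresentedGroup.of x) = fQ hat θ (lE8 x) := fun x => by
    simp [ψE, PresentedGroup.toGroup.of]
  have hm := mem_of_walk MY8.hR MY8.small MY8.big MY8.hgens (wP w10Y8) walk8
  obtain ⟨v, hv⟩ := mem_image ψ ψE MY8.D.Hs (by
    intro w hw
    have : ∀ i : Fin 8, ψE (PresentedGroup.of i) = ψ (PresentedGroup.mk MY8.RR (FreeGroup.of (Fin.castSucc i))) := by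
      intro i
      rw [hψE]
      show _ = FreeGroup.lift (fQ hat θ ∘ lY8) (FreeGroup.of (Fin.castSucc i))
      rw [FreeGroup.lift_apply_of]
      have e : lY8 (Fin.castSucc i) = lE8 i := by revert i; decide
      simp only [Function.comp_apply, e]
    simp only [MY8.D, List.mem_cons, List.not_mem_nil, or_false] at hw
    rcases hw with rfl | rfl | rfl | rfl | rfl | rfl | rfl | rfl
    · exact ⟨_, this 0⟩
    · exact ⟨_, this 1⟩
    · exact ⟨_, this 2⟩
    · exact ⟨_, this 3⟩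
    · exact ⟨_, this 4⟩
    · exact ⟨_, this 5⟩
    · exact ⟨_, this 6⟩
    · exact ⟨_, this 7⟩) _ hm
  have h2 : ψ (PresentedGroup.mk MY8.RR (wP w10Y8)) = (QuotientGroup.mk' (NN θ)) (evA hat z2W) := by
    show FreeGroup.lift (fQ hat θ ∘ lY8) (wP w10Y8) = _
    rw [lift_wP, word_comp, map8]
  rw [h2] at hv
  have h3 := pi_tau H ψE hψE piE8 piE8_of v
  rw [hv, tauQ_evA, z2_gG] at h3
  have h5 := key8 v h3
  have h6 : (QuotientGroup.mk' (NN θ)) (evA hat (z2W ++ z2W)) = 1 := by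
    rw [evA_append, map_mul, ← hv, ← map_mul, h5, map_one]
  exact pow_of_quot H hK h6 90 (by simp only [List.length_append, len2]; norm_num)

/-- The word of degree `90` is a power of `θ`. -/
theorem hR2 : evA hat z2W = Th θ ^ (45 : ℤ) := by
  have h3 := hR2a H hK
  have h2 := hR2b H hK
  rw [evA_append, h2] at h3
  have h4 : evA hat z2W = (Th θ ^ (90 : ℤ))⁻¹ * Th θ ^ (135 : ℤ) := by
    rw [← h3]
    group
  rw [h4, ← zpow_neg, ← zpow_add]
  norm_num

end Quot

/-- Every finite stem extension of `Fi₂₃` is an isomorphism. -/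
theorem ker_bot (Γ : Type) [Group Γ] (σ : Γ →* Fi23) (hσ : Function.Surjective σ) (hK : σ.ker ≤ Subgroup.center Γ)
    (hc : σ.ker ≤ commutator Γ) : σ.ker = ⊥ := by
  obtain ⟨hat, θ, H⟩ := exists_hats hσ hK nodes_gG z1_gG
  rw [eq_bot_iff]
  intro k hk
  have h := ker_trivial H hK z2W z1_gG z2_gG gen_gG hU_gG (hR1 H hK) (hR2 H hK) len1 len2 (MonoidHom.mem_ker.1 hk) (hc hk)
  exact Subgroup.mem_bot.2 h

end Cfsg.Agent.Lib.Fischer.M23.Mult.Main
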